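import Mathlib
import Cfsg.Prelude.Def_OddOrderLocal
import Cfsg.Prelude.Def_Characters
import Cfsg.Agent.Lib.Helper25.IndFun

/-!
# The TI property of `W \ (W₁ ∪ W₂)` for a self-normalising cyclic subgroup
-/

set_option autoImplicit false

namespace Cfsg.Agent.Lib.Helper25

theorem mem_normalizer_singleton_iff {G : Type*} [Group G] (w g : G) :
    g ∈ Subgroup.normalizer ({w} : Set G) ↔ g * w * g⁻¹ = w := by
  rw [Subgroup.mem_set_normalizer_iff]
  constructor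
  · intro h
    exact (h w).mp rfl
  · intro h n
    constructor
    · intro hn
      rw [Set.mem_singleton_iff] at hn ⊢
      rw [hn, h]
    · intro hn
      rw [Set.mem_singleton_iff] at hn ⊢
      have h1 : g * n * g⁻¹ = g * w * g⁻¹ := hn.trans h.symm
      simpa using h1

/-- In a cyclic group, an element whose order divides the order of a subgroup lies in it. -/
theorem mem_of_pow_card_eq_one_of_isCyclic {G : Type*} [Group G] [Finite G] (W K : Subgroup G)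
    (hK : K ≤ W) (hc : IsCyclic W) (u : G) (hu : u ∈ W) (h : u ^ Nat.card K = 1) : u ∈ K := by
  classical
  have : Fintype W := Fintype.ofFinite W
  have hn : 0 < Nat.card K := Nat.card_pos
  have h1 := IsCyclic.card_pow_eq_one_le (α := W) hn
  have hsub : Finset.univ.filter (fun a : W => (a : G) ∈ K) ⊆
      Finset.univ.filter (fun a : W => a ^ Nat.card K = 1) := by
    intro a ha
    rw [Finset.mem_filter] at ha ⊢
    refine ⟨Finset.mem_univ _, ?_⟩
    apply Subtype.ext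
    rw [Subgroup.coe_pow, Subgroup.coe_one]
    exact orderOf_dvd_iff_pow_eq_one.mp (Subgroup.orderOf_dvd_natCard K ha.2)
  have hcard : (Finset.univ.filter (fun a : W => (a : G) ∈ K)).card = Nat.card K := by
    rw [← Fintype.card_subtype, ← Nat.card_eq_fintype_card]
    exact Nat.card_congr (Subgroup.subgroupOfEquivOfLe hK).toEquiv
  have heq := Finset.eq_of_subset_of_card_le hsub (by rw [hcard]; exact h1)
  have hmem : (⟨u, hu⟩ : W) ∈ Finset.univ.filter (fun a : W => a ^ Nat.card K = 1) := by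
    rw [Finset.mem_filter]
    refine ⟨Finset.mem_univ _, ?_⟩
    apply Subtype.ext
    rw [Subgroup.coe_pow, Subgroup.coe_one]
    exact h
  rw [← heq, Finset.mem_filter] at hmem
  exact hmem.2

/-- The TI property: if `w` and its conjugate by `x` both lie in `W \ (W₁ ∪ W₂)` then `x ∈ W`. -/
theorem mem_of_conj_mem_V {G : Type*} [Group G] [Finite G] (W₁ W₂ : Subgroup G)
    (hW : Cfsg.IsSelfNormalizingCyclic W₁ W₂) (w x : G) (hw : w ∈ W₁ ⊔ W₂) (hw1 : w ∉ W₁)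
    (hw2 : w ∉ W₂) (hx : x⁻¹ * w * x ∈ W₁ ⊔ W₂) (hx1 : x⁻¹ * w * x ∉ W₁)
    (hx2 : x⁻¹ * w * x ∉ W₂) : x ∈ W₁ ⊔ W₂ := by
  obtain ⟨-, -, -, -, hcyc, hN⟩ := hW
  have hNw : Subgroup.normalizer ({w} : Set G) = W₁ ⊔ W₂ := by
    apply hN {w} _ (Set.singleton_nonempty w)
    intro y hy
    rw [Set.mem_singleton_iff] at hy
    rw [hy]
    exact ⟨hw, fun h => h.elim hw1 hw2⟩
  have hNw' : Subgroup.normalizer ({x⁻¹ * w * x} : Set G) = W₁ ⊔ W₂ := by
    apply hN _ _ (Set.singleton_nonempty _)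
    intro y hy
    rw [Set.mem_singleton_iff] at hy
    rw [hy]
    exact ⟨hx, fun h => h.elim hx1 hx2⟩
  have hxW : ∀ u ∈ W₁ ⊔ W₂, x * u * x⁻¹ ∈ W₁ ⊔ W₂ := by
    intro u hu
    rw [← hNw', mem_normalizer_singleton_iff] at hu
    rw [← hNw, mem_normalizer_singleton_iff]
    calc x * u * x⁻¹ * w * (x * u * x⁻¹)⁻¹ = x * (u * (x⁻¹ * w * x) * u⁻¹) * x⁻¹ := by group
      _ = x * (x⁻¹ * w * x) * x⁻¹ := by rw [hu]
      _ = w := by group
  have hxW' : ∀ u ∈ W₁ ⊔ W₂, x⁻¹ * u * x ∈ W₁ ⊔ W₂ := by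
    intro u hu
    rw [← hNw, mem_normalizer_singleton_iff] at hu
    rw [← hNw', mem_normalizer_singleton_iff]
    calc x⁻¹ * u * x * (x⁻¹ * w * x) * (x⁻¹ * u * x)⁻¹ = x⁻¹ * (u * w * u⁻¹) * x := by group
      _ = x⁻¹ * w * x := by rw [hu]
  have hK : ∀ K : Subgroup G, K ≤ W₁ ⊔ W₂ →
      (∀ u ∈ K, x * u * x⁻¹ ∈ K) ∧ (∀ u ∈ K, x⁻¹ * u * x ∈ K) := by
    intro K hK
    constructor
    · intro u hu
      apply mem_of_pow_card_eq_one_of_isCyclic (W₁ ⊔ W₂) K hK hcyc _ (hxW u (hK hu))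
      rw [conj_pow, orderOf_dvd_iff_pow_eq_one.mp (Subgroup.orderOf_dvd_natCard K hu)]
      group
    · intro u hu
      apply mem_of_pow_card_eq_one_of_isCyclic (W₁ ⊔ W₂) K hK hcyc _ (hxW' u (hK hu))
      have h1 : x⁻¹ * u * x = x⁻¹ * u * x⁻¹⁻¹ := by rw [inv_inv]
      rw [h1, conj_pow, orderOf_dvd_iff_pow_eq_one.mp (Subgroup.orderOf_dvd_natCard K hu)]
      group
  have hV : Subgroup.normalizer (((W₁ ⊔ W₂ : Subgroup G) : Set G) \ ((W₁ : Set G) ∪ (W₂ : Set G))) =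
      W₁ ⊔ W₂ := hN _ subset_rfl ⟨w, hw, fun h => h.elim hw1 hw2⟩
  rw [← hV, Subgroup.mem_set_normalizer_iff]
  intro n
  constructor
  · rintro ⟨hnW, hn12⟩
    refine ⟨hxW n hnW, ?_⟩
    rintro (h | h)
    · apply hn12
      left
      have h1 := (hK W₁ le_sup_left).2 _ h
      have h2 : x⁻¹ * (x * n * x⁻¹) * x = n := by group
      rw [h2] at h1
      exact h1
    · apply hn12
      right
      have h1 := (hK W₂ le_sup_right).2 _ h
      have h2 : x⁻¹ * (x * n * x⁻¹) * x = n := by group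
      rw [h2] at h1
      exact h1
  · rintro ⟨hnW, hn12⟩
    refine ⟨?_, ?_⟩
    · have h1 := hxW' _ hnW
      have h2 : x⁻¹ * (x * n * x⁻¹) * x = n := by group
      rw [h2] at h1
      exact h1
    · rintro (h | h)
      · exact hn12 (Or.inl ((hK W₁ le_sup_left).1 _ h))
      · exact hn12 (Or.inr ((hK W₂ le_sup_right).1 _ h))

/-- On `W \ (W₁ ∪ W₂)`, the function induced from a function on `W` vanishing on `W₁ ∪ W₂`
agrees with it. -/
theorem indFun_eq_on_V {G : Type*} [Group G] [Fintype G] (W₁ W₂ : Subgroup G)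
    (hW : Cfsg.IsSelfNormalizingCyclic W₁ W₂) (α : ↥(W₁ ⊔ W₂) → ℂ)
    (hα : ∀ w : ↥(W₁ ⊔ W₂), ((w : G) ∈ W₁ ∨ (w : G) ∈ W₂) → α w = 0)
    (w : ↥(W₁ ⊔ W₂)) (hw1 : (w : G) ∉ W₁) (hw2 : (w : G) ∉ W₂) :
    Cfsg.indFun (W₁ ⊔ W₂) α w = α w := by
  classical
  have hcyc : IsCyclic ↥(W₁ ⊔ W₂) := hW.2.2.2.2.1
  have hterm : ∀ x : G, Cfsg.extendByZero (W₁ ⊔ W₂) α (x⁻¹ * (w : G) * x) =
      if x ∈ W₁ ⊔ W₂ then α w else 0 := by
    intro x
    by_cases hx : x ∈ W₁ ⊔ W₂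
    · rw [if_pos hx]
      have hcomm : x⁻¹ * (w : G) * x = w := by
        have h1 : (⟨x, hx⟩ : ↥(W₁ ⊔ W₂)) * w = w * ⟨x, hx⟩ := mul_comm' _ _
        have h2 : x * (w : G) = (w : G) * x := congrArg Subtype.val h1
        rw [mul_assoc, ← h2]
        group
      rw [hcomm, extendByZero_coe]
    · rw [if_neg hx]
      by_cases hu : x⁻¹ * (w : G) * x ∈ W₁ ⊔ W₂
      · rw [extendByZero_of_mem _ _ hu]
        by_cases hu1 : x⁻¹ * (w : G) * x ∈ W₁
        · exact hα ⟨_, hu⟩ (Or.inl hu1)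
        · by_cases hu2 : x⁻¹ * (w : G) * x ∈ W₂
          · exact hα ⟨_, hu⟩ (Or.inr hu2)
          · exact absurd (mem_of_conj_mem_V W₁ W₂ hW w x w.2 hw1 hw2 hu hu1 hu2) hx
      · exact extendByZero_of_not_mem _ _ hu
  unfold Cfsg.indFun
  simp_rw [hterm]
  rw [Finset.sum_ite, Finset.sum_const_zero, add_zero, Finset.sum_const, nsmul_eq_mul]
  have hcard : ((Finset.univ.filter (fun x : G => x ∈ W₁ ⊔ W₂)).card : ℂ) =
      (Nat.card ↥(W₁ ⊔ W₂) : ℂ) := by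
    congr 1
    rw [Nat.card_eq_fintype_card, Fintype.card_subtype]
  rw [hcard]
  have hne : (Nat.card ↥(W₁ ⊔ W₂) : ℂ) ≠ 0 := by
    exact_mod_cast (Nat.card_pos (α := ↥(W₁ ⊔ W₂))).ne'
  field_simp

end Cfsg.Agent.Lib.Helper25
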