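import Mathlib
import Cfsg.Agent.Lib.Helper25.LinChar
import Cfsg.Agent.Lib.Helper25.CyclicTI

/-!
# The dual group of a cyclic `W = W₁ ⊔ W₂` with `W₁ ⊓ W₂ = ⊥`
-/

set_option autoImplicit false

namespace Cfsg.Agent.Lib.Helper25

/-- Two subgroups of a cyclic group meeting trivially have coprime orders. -/
theorem coprime_card_of_isCyclic_sup {G : Type*} [Group G] [Finite G] (W₁ W₂ : Subgroup G)
    (hdisj : W₁ ⊓ W₂ = ⊥) (hcyc : IsCyclic ↥(W₁ ⊔ W₂)) :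
    (Nat.card W₁).Coprime (Nat.card W₂) := by
  by_contra hcon
  obtain ⟨q, hq, hq1, hq2⟩ := Nat.Prime.not_coprime_iff_dvd.mp hcon
  have : Fact q.Prime := ⟨hq⟩
  obtain ⟨a, ha⟩ := exists_prime_orderOf_dvd_card' q hq1
  obtain ⟨b, hb⟩ := exists_prime_orderOf_dvd_card' q hq2
  have ha' : orderOf (a : G) = q := by rw [Subgroup.orderOf_coe]; exact ha
  have hb' : orderOf (b : G) = q := by rw [Subgroup.orderOf_coe]; exact hb
  have hza : Subgroup.zpowers (a : G) ≤ W₁ ⊔ W₂ :=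
    (Subgroup.zpowers_le).mpr (Subgroup.mem_sup_left a.2)
  have hbmem : (b : G) ∈ Subgroup.zpowers (a : G) := by
    apply mem_of_pow_card_eq_one_of_isCyclic (W₁ ⊔ W₂) _ hza hcyc _ (Subgroup.mem_sup_right b.2)
    rw [Nat.card_zpowers, ha', ← hb']
    exact pow_orderOf_eq_one _
  have hb1 : (b : G) ∈ W₁ := (Subgroup.zpowers_le.mpr a.2) hbmem
  have hb0 : (b : G) ∈ W₁ ⊓ W₂ := ⟨hb1, b.2⟩
  rw [hdisj, Subgroup.mem_bot] at hb0
  rw [hb0, orderOf_one] at hb'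
  exact hq.one_lt.ne hb'

theorem linChar_pow_card {W : Type*} [Group W] [Finite W] (ω : W →* ℂˣ) :
    ω ^ Nat.card W = 1 := by
  apply MonoidHom.ext
  intro w
  rw [MonoidHom.pow_apply, ← map_pow, pow_card_eq_one', map_one]
  rfl

/-- In a group of odd order, a nontrivial linear character has nontrivial square. -/
theorem linChar_mul_self_ne_one {W : Type*} [Group W] [Finite W] (hodd : Odd (Nat.card W))
    (ψ : W →* ℂˣ) (h : ψ ≠ 1) : ψ * ψ ≠ 1 := by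
  intro h2
  apply h
  have h3 : ψ ^ 2 = 1 := (pow_two ψ).trans h2
  have h4 := linChar_pow_card ψ
  have h5 : orderOf ψ ∣ 2 := orderOf_dvd_of_pow_eq_one h3
  have h6 : orderOf ψ ∣ Nat.card W := orderOf_dvd_of_pow_eq_one h4
  have h7 : orderOf ψ ∣ Nat.gcd 2 (Nat.card W) := Nat.dvd_gcd h5 h6
  have h8 : Nat.gcd 2 (Nat.card W) = 1 := Nat.coprime_two_left.mpr hodd
  rw [h8, Nat.dvd_one] at h7
  exact orderOf_eq_one_iff.mp h7

/-- Every linear character of `W₁ ⊔ W₂` is a product of one trivial on `W₂` and one trivial on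
`W₁`. -/
theorem exists_linChar_decomp {G : Type*} [Group G] [Finite G] (W₁ W₂ : Subgroup G)
    (hdisj : W₁ ⊓ W₂ = ⊥) (hcomm : ∀ a ∈ W₁, ∀ b ∈ W₂, a * b = b * a)
    (hcyc : IsCyclic ↥(W₁ ⊔ W₂)) (ω : ↥(W₁ ⊔ W₂) →* ℂˣ) :
    ∃ φ ψ : ↥(W₁ ⊔ W₂) →* ℂˣ, (∀ w : ↥(W₁ ⊔ W₂), (w : G) ∈ W₂ → φ w = 1) ∧
      (∀ w : ↥(W₁ ⊔ W₂), (w : G) ∈ W₁ → ψ w = 1) ∧ ω = φ * ψ := by
  have hco := coprime_card_of_isCyclic_sup W₁ W₂ hdisj hcyc
  obtain ⟨e₁, h11, h12⟩ := Nat.chineseRemainder hco 1 0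
  obtain ⟨e₂, h21, h22⟩ := Nat.chineseRemainder hco 0 1
  have hord : ∀ (K : Subgroup G) (w : ↥(W₁ ⊔ W₂)), (w : G) ∈ K → orderOf w ∣ Nat.card K := by
    intro K w hw
    rw [← Subgroup.orderOf_coe]
    exact Subgroup.orderOf_dvd_natCard K hw
  have hpow1 : ∀ (K : Subgroup G) (w : ↥(W₁ ⊔ W₂)), (w : G) ∈ K → ∀ e : ℕ,
      e ≡ 1 [MOD Nat.card K] → w ^ e = w := by
    intro K w hw e he
    have h1 : w ^ e = w ^ 1 := pow_eq_pow_iff_modEq.mpr (he.of_dvd (hord K w hw))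
    rwa [pow_one] at h1
  have hpow0 : ∀ (K : Subgroup G) (w : ↥(W₁ ⊔ W₂)), (w : G) ∈ K → ∀ e : ℕ,
      e ≡ 0 [MOD Nat.card K] → w ^ e = 1 := by
    intro K w hw e he
    exact orderOf_dvd_iff_pow_eq_one.mp ((hord K w hw).trans ((Nat.modEq_zero_iff_dvd).mp he))
  refine ⟨ω ^ e₁, ω ^ e₂, ?_, ?_, ?_⟩
  · intro w hw
    rw [MonoidHom.pow_apply, ← map_pow, hpow0 W₂ w hw e₁ h12, map_one]
  · intro w hw
    rw [MonoidHom.pow_apply, ← map_pow, hpow0 W₁ w hw e₂ h21, map_one]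
  · apply linChar_ext_sup W₁ W₂ hcomm
    · intro w hw
      rw [MonoidHom.mul_apply, MonoidHom.pow_apply, MonoidHom.pow_apply, ← map_pow, ← map_pow,
        hpow1 W₁ w hw e₁ h11, hpow0 W₁ w hw e₂ h21, map_one, mul_one]
    · intro w hw
      rw [MonoidHom.mul_apply, MonoidHom.pow_apply, MonoidHom.pow_apply, ← map_pow, ← map_pow,
        hpow0 W₂ w hw e₁ h12, hpow1 W₂ w hw e₂ h22, map_one, one_mul]

theorem linChar_pow_eq_self_of_modEq {W : Type*} [Group W] (ω : W →* ℂˣ) (r : ℕ)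
    (hr : r ≡ 1 [MOD orderOf ω]) : ω ^ r = ω := by
  have h2 : ω ^ r = ω ^ 1 :=
    (pow_mod_orderOf ω r).symm.trans ((congrArg (fun k => ω ^ k) hr).trans (pow_mod_orderOf ω 1))
  exact h2.trans (pow_one ω)

theorem linChar_apply_pow_eq_self {W : Type*} [Group W] (ω : W →* ℂˣ) (r : ℕ)
    (hr : r ≡ 1 [MOD orderOf ω]) (w : W) : ω w ^ r = ω w := by
  have h := linChar_pow_eq_self_of_modEq ω r hr
  rw [← MonoidHom.pow_apply, h]

end Cfsg.Agent.Lib.Helper25
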