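import Mathlib
import Cfsg.Agent.Lib.Helper25.Annih
import Cfsg.Agent.Lib.Helper25.CyclicDual
import Cfsg.Agent.Lib.Helper1.SZInternal

/-!
# The number of linear characters trivial on a subgroup
-/

set_option autoImplicit false

namespace Cfsg.Agent.Lib.Helper25

/-- Characters trivial on a normal subgroup correspond to characters of the quotient. -/
noncomputable def annihEquiv {W : Type*} [Group W] (N : Subgroup W) [N.Normal] :
    annih N ≃ (W ⧸ N →* ℂˣ) where
  toFun φ := QuotientGroup.lift N φ.1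
    (fun n hn => MonoidHom.mem_ker.mpr ((mem_annih N φ.1).mp φ.2 n hn))
  invFun ψ := ⟨ψ.comp (QuotientGroup.mk' N), (mem_annih N _).mpr (fun w hw => by
    rw [MonoidHom.comp_apply, QuotientGroup.mk'_apply, (QuotientGroup.eq_one_iff w).mpr hw,
      map_one])⟩
  left_inv φ := by
    apply Subtype.ext
    apply MonoidHom.ext
    intro w
    rfl
  right_inv ψ := by
    apply MonoidHom.ext
    intro q
    obtain ⟨w, rfl⟩ := QuotientGroup.mk_surjective q
    rfl

/-- In a finite commutative group, the number of linear characters trivial on a subgroup is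
its index. -/
theorem card_annih {W : Type*} [Group W] [Finite W] (hc : ∀ a b : W, a * b = b * a)
    (N : Subgroup W) : Nat.card (annih N) = N.index := by
  have hN : N.Normal := by
    constructor
    intro n hn g
    rw [hc g n, mul_inv_cancel_right]
    exact hn
  have hcQ : ∀ a b : W ⧸ N, a * b = b * a := by
    intro a b
    obtain ⟨a, rfl⟩ := QuotientGroup.mk_surjective a
    obtain ⟨b, rfl⟩ := QuotientGroup.mk_surjective b
    rw [← QuotientGroup.mk_mul, ← QuotientGroup.mk_mul, hc a b]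
  let _ : CommGroup (W ⧸ N) := { (inferInstance : Group (W ⧸ N)) with mul_comm := hcQ }
  rw [Nat.card_congr (annihEquiv N)]
  exact CommGroup.card_monoidHom_of_hasEnoughRootsOfUnity (W ⧸ N) ℂ

theorem le_normalizer_of_commute {G : Type*} [Group G] (W₁ W₂ : Subgroup G)
    (hcomm : ∀ a ∈ W₁, ∀ b ∈ W₂, a * b = b * a) : W₂ ≤ Subgroup.normalizer (W₁ : Set G) := by
  intro b hb
  rw [Subgroup.mem_set_normalizer_iff]
  intro n
  constructor
  · intro hn
    have h1 : b * n * b⁻¹ = n := by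
      rw [← hcomm n hn b hb, mul_inv_cancel_right]
    rw [h1]
    exact hn
  · intro hn
    have h1 : n = b * n * b⁻¹ := by
      have h2 := hcomm (b * n * b⁻¹) hn b hb
      have h3 : b * n * b⁻¹ * b = b * n := by group
      rw [h3] at h2
      exact mul_left_cancel h2
    rw [h1]
    exact hn

/-- The order of a cyclic `W₁ ⊔ W₂` with `W₁ ⊓ W₂ = ⊥`. -/
theorem card_sup_of_isCyclic {G : Type*} [Group G] [Finite G] (W₁ W₂ : Subgroup G)
    (hdisj : W₁ ⊓ W₂ = ⊥) (hcomm : ∀ a ∈ W₁, ∀ b ∈ W₂, a * b = b * a)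
    (hcyc : IsCyclic ↥(W₁ ⊔ W₂)) :
    Nat.card ↥(W₁ ⊔ W₂) = Nat.card W₁ * Nat.card W₂ :=
  Cfsg.Agent.Lib.Helper1.card_sup_of_normalizer_coprime W₁ W₂
    (le_normalizer_of_commute W₁ W₂ hcomm)
    (coprime_card_of_isCyclic_sup W₁ W₂ hdisj hcyc).symm

/-- The number of linear characters of `W₁ ⊔ W₂` trivial on `W₂` is the order of `W₁`. -/
theorem card_annih_right {G : Type*} [Group G] [Finite G] (W₁ W₂ : Subgroup G)
    (hdisj : W₁ ⊓ W₂ = ⊥) (hcomm : ∀ a ∈ W₁, ∀ b ∈ W₂, a * b = b * a)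
    (hcyc : IsCyclic ↥(W₁ ⊔ W₂)) :
    Nat.card (annih (W₂.subgroupOf (W₁ ⊔ W₂))) = Nat.card W₁ := by
  have hc : ∀ a b : ↥(W₁ ⊔ W₂), a * b = b * a := fun a b => mul_comm' a b
  rw [card_annih hc]
  have h1 := Subgroup.card_mul_index (W₂.subgroupOf (W₁ ⊔ W₂))
  rw [Cfsg.Agent.Lib.Helper1.card_subgroupOf_of_le le_sup_right,
    card_sup_of_isCyclic W₁ W₂ hdisj hcomm hcyc, mul_comm (Nat.card W₁)] at h1
  exact Nat.eq_of_mul_eq_mul_left Nat.card_pos h1

/-- The number of linear characters of `W₁ ⊔ W₂` trivial on `W₁` is the order of `W₂`. -/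
theorem card_annih_left {G : Type*} [Group G] [Finite G] (W₁ W₂ : Subgroup G)
    (hdisj : W₁ ⊓ W₂ = ⊥) (hcomm : ∀ a ∈ W₁, ∀ b ∈ W₂, a * b = b * a)
    (hcyc : IsCyclic ↥(W₁ ⊔ W₂)) :
    Nat.card (annih (W₁.subgroupOf (W₁ ⊔ W₂))) = Nat.card W₂ := by
  have hc : ∀ a b : ↥(W₁ ⊔ W₂), a * b = b * a := fun a b => mul_comm' a b
  rw [card_annih hc]
  have h1 := Subgroup.card_mul_index (W₁.subgroupOf (W₁ ⊔ W₂))
  rw [Cfsg.Agent.Lib.Helper1.card_subgroupOf_of_le le_sup_left,
    card_sup_of_isCyclic W₁ W₂ hdisj hcomm hcyc] at h1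
  exact Nat.eq_of_mul_eq_mul_left Nat.card_pos h1

end Cfsg.Agent.Lib.Helper25
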