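import Mathlib
import Cfsg.Prelude.Def_OddOrderChar
import Cfsg.Agent.Lib.Helper25.Basic
import Cfsg.Agent.S1498

set_option autoImplicit false

namespace Cfsg.Agent.Lib.Helper25

open Cfsg

section DadeGroup

variable {G : Type*} [Group G] {A : Set G} {L : Subgroup G} {H : G → Subgroup G}

theorem dade_commute (hD : DadeHypothesis A L H) {a u : G} (ha : a ∈ A) (hu : u ∈ H a) :
    Commute a u := by
  have := hD.le_centralizer a ha hu
  rw [Subgroup.mem_centralizer_iff] at this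
  exact this a (Set.mem_singleton a)

theorem dade_coprime [Finite G] (hD : DadeHypothesis A L H) {a b u : G} (ha : a ∈ A)
    (hb : b ∈ A) (hu : u ∈ H a) : (orderOf u).Coprime (orderOf b) := by
  have h1 : orderOf u ∣ Nat.card ↥(H a) := Subgroup.orderOf_dvd_natCard _ hu
  have h2 : orderOf b ∣ Nat.card ↥(L ⊓ Subgroup.centralizer ({b} : Set G)) := by
    have hmem : b ∈ L ⊓ Subgroup.centralizer ({b} : Set G) := by
      refine Subgroup.mem_inf.mpr ⟨hD.subset hb, ?_⟩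
      rw [Subgroup.mem_centralizer_iff]
      intro h hh
      rw [Set.mem_singleton_iff] at hh
      rw [hh]
    exact Subgroup.orderOf_dvd_natCard _ hmem
  exact Nat.Coprime.of_dvd h1 h2 (hD.coprime a ha b hb)

/-- Conjugating an element of one Dade coset into another conjugates the parts. -/
theorem dade_conj_parts [Finite G] (hD : DadeHypothesis A L H) {a b u v y : G} (ha : a ∈ A)
    (hb : b ∈ A) (hu : u ∈ H a) (hv : v ∈ H b) (h : y * (a * u) * y⁻¹ = b * v) :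
    y * a * y⁻¹ = b ∧ y * u * y⁻¹ = v := by
  have key : y * a * y⁻¹ = b := by
    apply piPart_eq (y * a * y⁻¹) (y * u * y⁻¹) b v
    · have h2 : a * u = u * a := dade_commute hD ha hu
      show (y * a * y⁻¹) * (y * u * y⁻¹) = (y * u * y⁻¹) * (y * a * y⁻¹)
      calc (y * a * y⁻¹) * (y * u * y⁻¹) = y * (a * u) * y⁻¹ := by group
        _ = y * (u * a) * y⁻¹ := by rw [h2]
        _ = (y * u * y⁻¹) * (y * a * y⁻¹) := by group
    · exact dade_commute hD hb hv
    · exact isOfFinOrder_of_finite _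
    · exact isOfFinOrder_of_finite _
    · rw [ord_conj, ord_conj]; exact dade_coprime hD ha ha hu
    · rw [ord_conj]; exact dade_coprime hD hb ha hv
    · rw [ord_conj]; exact dade_coprime hD ha hb hu
    · exact dade_coprime hD hb hb hv
    · rw [← h]; group
  refine ⟨key, ?_⟩
  have h3 : (y * a * y⁻¹) * (y * u * y⁻¹) = b * v := by rw [← h]; group
  rw [key] at h3
  exact mul_left_cancel h3

/-- An element conjugating `a ∈ A` into `A` is a product of an element of `L` and one of `H a`. -/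
theorem dade_decomp (hD : DadeHypothesis A L H) {a y : G} (ha : a ∈ A)
    (hy : y * a * y⁻¹ ∈ A) : ∃ l ∈ L, ∃ h ∈ H a, y = l * h := by
  obtain ⟨l, hl, hla⟩ := hD.fusion a ha y hy
  have hc : l⁻¹ * y ∈ Subgroup.centralizer ({a} : Set G) := by
    rw [Subgroup.mem_centralizer_iff]
    intro h hh
    rw [Set.mem_singleton_iff] at hh
    subst hh
    have h1 : l⁻¹ * (y * h * y⁻¹) * l = h := by rw [← hla]; group
    calc h * (l⁻¹ * y) = (l⁻¹ * (y * h * y⁻¹) * l) * (l⁻¹ * y) := by rw [h1]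
      _ = l⁻¹ * y * h := by group
  rw [← hD.sup_eq a ha] at hc
  set M : Subgroup G := L ⊓ Subgroup.centralizer ({a} : Set G) with hM
  have hMn : M ≤ Subgroup.normalizer (H a : Set G) := by
    intro c hc
    have hc' : c ∈ Subgroup.centralizer ({a} : Set G) := (Subgroup.mem_inf.mp hc).2
    rw [Subgroup.mem_normalizer_iff]
    intro n
    constructor
    · intro hn
      exact hD.conj_mem_H a ha c hc' n hn
    · intro hn
      have h2 := hD.conj_mem_H a ha c⁻¹ (inv_mem hc') _ hn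
      have e : c⁻¹ * (c * n * c⁻¹) * c⁻¹⁻¹ = n := by group
      rw [e] at h2
      exact h2
  rw [sup_comm] at hc
  have hc' : l⁻¹ * y ∈ ((M ⊔ H a : Subgroup G) : Set G) := hc
  rw [Subgroup.coe_mul_of_left_le_normalizer_right M (H a) hMn] at hc'
  obtain ⟨m, hm, h, hh, e⟩ := hc'
  have hm' : m ∈ M := hm
  have hh' : h ∈ H a := hh
  have e' : m * h = l⁻¹ * y := e
  refine ⟨l * m, mul_mem hl (Subgroup.mem_inf.mp hm').1, h, hh', ?_⟩
  calc y = l * (l⁻¹ * y) := by group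
    _ = l * (m * h) := by rw [e']
    _ = l * m * h := by group

theorem dade_decomp_unique (hD : DadeHypothesis A L H) {a l l' h h' : G} (ha : a ∈ A)
    (hl : l ∈ L) (hl' : l' ∈ L) (hh : h ∈ H a) (hh' : h' ∈ H a) (e : l * h = l' * h') :
    l = l' ∧ h = h' := by
  have h1 : l'⁻¹ * l = h' * h⁻¹ := by
    calc l'⁻¹ * l = l'⁻¹ * (l * h) * h⁻¹ := by group
      _ = l'⁻¹ * (l' * h') * h⁻¹ := by rw [e]
      _ = h' * h⁻¹ := by group
  have h2 : l'⁻¹ * l ∈ H a ⊓ (L ⊓ Subgroup.centralizer ({a} : Set G)) := by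
    have hH : l'⁻¹ * l ∈ H a := by rw [h1]; exact mul_mem hh' (inv_mem hh)
    exact Subgroup.mem_inf.mpr ⟨hH, Subgroup.mem_inf.mpr
      ⟨mul_mem (inv_mem hl') hl, hD.le_centralizer a ha hH⟩⟩
  rw [hD.inf_eq_bot a ha, Subgroup.mem_bot] at h2
  have hll : l = l' := by
    calc l = l' * (l'⁻¹ * l) := by group
      _ = l' := by rw [h2, mul_one]
  refine ⟨hll, ?_⟩
  subst hll
  exact mul_left_cancel e

theorem dade_card_conj [Finite G] (hD : DadeHypothesis A L H) {a l : G} (ha : a ∈ A)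
    (hl : l ∈ L) : Nat.card (H (l * a * l⁻¹)) = Nat.card (H a) := by
  rw [Cfsg.Agent.S1498.result A L H hD a ha l hl]
  exact Subgroup.card_map_of_injective (MulAut.conj l).injective

end DadeGroup

section DadeSums

variable {G : Type*} [Group G] [Fintype G] {A : Set G} {L : Subgroup G} [Fintype L]
  {H : G → Subgroup G}

open Classical in
/-- The weight function of the Dade support, as an indicator sum. -/
noncomputable def dadeAux (A : Set G) (L : Subgroup G) [Fintype L] (H : G → Subgroup G)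
    (c : L → ℂ) (t : G) : ℂ :=
  ∑ a : L, ∑ u : G, if ((a : G) ∈ A ∧ u ∈ H a ∧ t = a * u) then c a else 0

open Classical in
theorem dadeAux_apply (hD : DadeHypothesis A L H) (c : L → ℂ) (a : L) (ha : (a : G) ∈ A)
    (u : G) (hu : u ∈ H a) : dadeAux A L H c ((a : G) * u) = c a := by
  unfold dadeAux
  rw [Finset.sum_eq_single a]
  · rw [Finset.sum_eq_single u]
    · rw [if_pos ⟨ha, hu, rfl⟩]
    · intro u' _ hne
      rw [if_neg]
      rintro ⟨_, _, e⟩
      exact hne (mul_left_cancel e).symm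
    · intro h; exact absurd (Finset.mem_univ _) h
  · intro a' _ hne
    apply Finset.sum_eq_zero
    intro u' _
    rw [if_neg]
    rintro ⟨ha', hu', e⟩
    have h1 := (dade_conj_parts hD ha ha' hu hu' (y := 1) (by simpa using e)).1
    apply hne
    apply Subtype.ext
    simpa using h1.symm
  · intro h; exact absurd (Finset.mem_univ _) h

open Classical in
theorem dadeAux_eq_zero (c : L → ℂ) (t : G)
    (h : ¬ ∃ a : L, (a : G) ∈ A ∧ ∃ u ∈ H a, t = a * u) : dadeAux A L H c t = 0 := by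
  unfold dadeAux
  apply Finset.sum_eq_zero
  intro a _
  apply Finset.sum_eq_zero
  intro u _
  rw [if_neg]
  rintro ⟨ha, hu, e⟩
  exact h ⟨a, ha, u, hu, e⟩

open Classical in
theorem sum_dadeAux_mul (c : L → ℂ) (F : G → ℂ) :
    ∑ t : G, dadeAux A L H c t * F t =
      ∑ a : L, ∑ u : G, if ((a : G) ∈ A ∧ u ∈ H a) then c a * F (a * u) else 0 := by
  unfold dadeAux
  simp_rw [Finset.sum_mul]
  rw [Finset.sum_comm]
  apply Finset.sum_congr rfl
  intro a _
  rw [Finset.sum_comm]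
  apply Finset.sum_congr rfl
  intro u _
  by_cases h : (a : G) ∈ A ∧ u ∈ H a
  · rw [if_pos h, Finset.sum_eq_single ((a : G) * u)]
    · rw [if_pos ⟨h.1, h.2, rfl⟩]
    · intro t _ hne
      rw [if_neg, zero_mul]
      rintro ⟨_, _, e⟩
      exact hne e
    · intro h'; exact absurd (Finset.mem_univ _) h'
  · rw [if_neg h]
    apply Finset.sum_eq_zero
    intro t _
    rw [if_neg, zero_mul]
    rintro ⟨h1, h2, _⟩
    exact h ⟨h1, h2⟩

theorem sum_dadeAux_conj (hD : DadeHypothesis A L H) (c : L → ℂ)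
    (hc : ∀ (a l : L), (a : G) ∈ A → c (l * a * l⁻¹) = c a)
    (g : G) (a₀ : L) (ha₀ : (a₀ : G) ∈ A) (u₀ x₀ : G) (hu₀ : u₀ ∈ H a₀)
    (hx₀ : x₀ * g * x₀⁻¹ = a₀ * u₀) :
    ∑ x : G, dadeAux A L H c (x * g * x⁻¹) =
      (Nat.card L : ℂ) * (Nat.card (H a₀) : ℂ) * c a₀ := by
  classical
  have e1 : ∑ x : G, dadeAux A L H c (x * g * x⁻¹) =
      ∑ y : G, dadeAux A L H c (y * ((a₀ : G) * u₀) * y⁻¹) := by
    apply Fintype.sum_equiv (Equiv.mulRight x₀⁻¹)
    intro x
    simp only [Equiv.coe_mulRight]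
    rw [← hx₀]
    congr 1
    group
  rw [e1]
  set ψ : G → ℂ := fun y => dadeAux A L H c (y * ((a₀ : G) * u₀) * y⁻¹) with hψ
  have hinj : Function.Injective (fun p : L × H (a₀ : G) => (p.1 : G) * (p.2 : G)) := by
    rintro ⟨l, h⟩ ⟨l', h'⟩ e
    obtain ⟨e1, e2⟩ := dade_decomp_unique hD ha₀ l.2 l'.2 h.2 h'.2 e
    exact Prod.ext (Subtype.ext e1) (Subtype.ext e2)
  have e2 : ∑ y : G, ψ y = ∑ p : L × H (a₀ : G), ψ ((p.1 : G) * (p.2 : G)) := by
    rw [← Finset.sum_image (s := Finset.univ)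
      (g := fun p : L × H (a₀ : G) => (p.1 : G) * (p.2 : G)) (f := ψ)
      (fun x _ y _ e => hinj e)]
    symm
    apply Finset.sum_subset (Finset.subset_univ _)
    intro y _ hy
    apply dadeAux_eq_zero
    rintro ⟨a, ha, u, hu, e⟩
    apply hy
    have h1 := (dade_conj_parts hD ha₀ ha hu₀ hu e).1
    obtain ⟨l, hl, h, hh, rfl⟩ := dade_decomp hD ha₀ (by rw [h1]; exact ha)
    exact Finset.mem_image.mpr ⟨(⟨l, hl⟩, ⟨h, hh⟩), Finset.mem_univ _, rfl⟩
  show ∑ y : G, ψ y = _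
  rw [e2]
  have e3 : ∀ p : L × H (a₀ : G), ψ ((p.1 : G) * (p.2 : G)) = c a₀ := by
    rintro ⟨l, h⟩
    have hh := h.2
    have hcomm : (h : G) * a₀ = a₀ * h := (dade_commute hD ha₀ hh).eq.symm
    have e : (l : G) * h * ((a₀ : G) * u₀) * ((l : G) * h)⁻¹ =
        ((l * a₀ * l⁻¹ : L) : G) * ((l : G) * ((h : G) * u₀ * (h : G)⁻¹) * (l : G)⁻¹) := by
      push_cast
      calc (l : G) * h * ((a₀ : G) * u₀) * ((l : G) * h)⁻¹
          = l * (h * a₀) * u₀ * (h : G)⁻¹ * (l : G)⁻¹ := by group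
        _ = l * (a₀ * h) * u₀ * (h : G)⁻¹ * (l : G)⁻¹ := by rw [hcomm]
        _ = _ := by group
    show dadeAux A L H c ((l : G) * h * ((a₀ : G) * u₀) * ((l : G) * h)⁻¹) = c a₀
    have hmemA : ((l * a₀ * l⁻¹ : L) : G) ∈ A := by
      simpa using hD.conj_mem l l.2 a₀ ha₀
    have h1 : (h : G) * u₀ * (h : G)⁻¹ ∈ H (a₀ : G) := mul_mem (mul_mem hh hu₀) (inv_mem hh)
    have hmemH : (l : G) * ((h : G) * u₀ * (h : G)⁻¹) * (l : G)⁻¹ ∈ H ((l * a₀ * l⁻¹ : L) : G) := by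
      simpa using Cfsg.Agent.S1498.conj_le A L H hD a₀ ha₀ l l.2 _ h1
    rw [e, dadeAux_apply hD c (l * a₀ * l⁻¹) hmemA _ hmemH, hc a₀ l ha₀]
  simp_rw [e3]
  rw [Finset.sum_const, Finset.card_univ, nsmul_eq_mul, Fintype.card_eq_nat_card, Nat.card_prod]
  push_cast
  ring

theorem sum_dadeAux_conj_zero (c : L → ℂ) (g : G)
    (h : ¬ ∃ a : L, (a : G) ∈ A ∧ ∃ x : G, ∃ u ∈ H (a : G), x * g * x⁻¹ = (a : G) * u) :
    ∑ x : G, dadeAux A L H c (x * g * x⁻¹) = 0 := by
  apply Finset.sum_eq_zero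
  intro x _
  apply dadeAux_eq_zero
  rintro ⟨a, ha, u, hu, e⟩
  exact h ⟨a, ha, x, u, hu, e⟩

omit [Fintype L] in
theorem dadeIsometry_apply (hD : DadeHypothesis A L H) (α : L → ℂ) (hα : IsClassFunction L α)
    (g : G) (a₀ : L) (ha₀ : (a₀ : G) ∈ A) (u₀ x₀ : G) (hu₀ : u₀ ∈ H a₀)
    (hx₀ : x₀ * g * x₀⁻¹ = a₀ * u₀) : dadeIsometry A L H α g = α a₀ := by
  have h : ∃ a : ↥L, (a : G) ∈ A ∧ ∃ x : G, ∃ u ∈ H (a : G), x * g * x⁻¹ = (a : G) * u :=
    ⟨a₀, ha₀, x₀, u₀, hu₀, hx₀⟩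
  unfold dadeIsometry
  rw [dif_pos h]
  obtain ⟨ha, x, u, hu, hx⟩ := Classical.choose_spec h
  have e : (x * x₀⁻¹) * ((a₀ : G) * u₀) * (x * x₀⁻¹)⁻¹ = ((Classical.choose h : L) : G) * u := by
    rw [← hx₀, ← hx]; group
  have e1 := (dade_conj_parts hD ha₀ ha hu₀ hu e).1
  obtain ⟨l, hl, hla⟩ := hD.fusion a₀ ha₀ (x * x₀⁻¹) (by rw [e1]; exact ha)
  have e2 : Classical.choose h = (⟨l, hl⟩ : L) * a₀ * (⟨l, hl⟩ : L)⁻¹ := by
    apply Subtype.ext
    rw [← e1, ← hla]
    rfl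
  rw [e2]
  exact hα a₀ ⟨l, hl⟩

omit [Fintype G] [Fintype L] in
theorem dadeIsometry_eq_zero (α : L → ℂ) (g : G)
    (h : ¬ ∃ a : ↥L, (a : G) ∈ A ∧ ∃ x : G, ∃ u ∈ H (a : G), x * g * x⁻¹ = (a : G) * u) :
    dadeIsometry A L H α g = 0 := by
  unfold dadeIsometry
  rw [dif_neg h]

theorem isClassFunction_dadeIsometry (hD : DadeHypothesis A L H) (α : L → ℂ)
    (hα : IsClassFunction L α) : IsClassFunction G (dadeIsometry A L H α) := by
  intro g y
  by_cases h : ∃ a : ↥L, (a : G) ∈ A ∧ ∃ x : G, ∃ u ∈ H (a : G), x * g * x⁻¹ = (a : G) * u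
  · obtain ⟨a₀, ha₀, x₀, u₀, hu₀, hx₀⟩ := h
    rw [dadeIsometry_apply hD α hα g a₀ ha₀ u₀ x₀ hu₀ hx₀,
      dadeIsometry_apply hD α hα (y * g * y⁻¹) a₀ ha₀ u₀ (x₀ * y⁻¹) hu₀
        (by rw [← hx₀]; group)]
  · rw [dadeIsometry_eq_zero α g h, dadeIsometry_eq_zero]
    rintro ⟨a, ha, x, u, hu, hx⟩
    exact h ⟨a, ha, x * y, u, hu, by rw [← hx]; group⟩

open Classical in
/-- The basic summation formula for the Dade map against a class function. -/
theorem sum_dadeIsometry_mul (hD : DadeHypothesis A L H) (α : L → ℂ)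
    (hα : IsClassFunction L α) (F : G → ℂ) (hF : IsClassFunction G F) :
    (Nat.card L : ℂ) * ∑ g : G, dadeIsometry A L H α g * F g =
      (Nat.card G : ℂ) * ∑ a : L, ∑ u : G,
        if ((a : G) ∈ A ∧ u ∈ H a) then α a * (Nat.card (H (a : G)) : ℂ)⁻¹ * F (a * u)
        else 0 := by
  classical
  set c : L → ℂ := fun a => α a * (Nat.card (H (a : G)) : ℂ)⁻¹ with hc
  have hcc : ∀ (a l : L), (a : G) ∈ A → c (l * a * l⁻¹) = c a := by
    intro a l ha
    simp only [hc]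
    rw [hα a l]
    have h1 := dade_card_conj hD ha l.2
    have h2 : Nat.card (H ((l * a * l⁻¹ : L) : G)) = Nat.card (H (a : G)) := by
      simpa using h1
    rw [h2]
  have key : ∀ g : G, ∑ x : G, dadeAux A L H c (x * g * x⁻¹) =
      (Nat.card L : ℂ) * dadeIsometry A L H α g := by
    intro g
    by_cases h : ∃ a : ↥L, (a : G) ∈ A ∧ ∃ x : G, ∃ u ∈ H (a : G), x * g * x⁻¹ = (a : G) * u
    · obtain ⟨a₀, ha₀, x₀, u₀, hu₀, hx₀⟩ := h
      rw [sum_dadeAux_conj hD c hcc g a₀ ha₀ u₀ x₀ hu₀ hx₀,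
        dadeIsometry_apply hD α hα g a₀ ha₀ u₀ x₀ hu₀ hx₀]
      have hne : (Nat.card (H (a₀ : G)) : ℂ) ≠ 0 := by
        exact_mod_cast Nat.card_pos.ne'
      simp only [hc]
      field_simp
    · rw [sum_dadeAux_conj_zero c g h, dadeIsometry_eq_zero α g h, mul_zero]
  calc (Nat.card L : ℂ) * ∑ g : G, dadeIsometry A L H α g * F g
      = ∑ g : G, (∑ x : G, dadeAux A L H c (x * g * x⁻¹)) * F g := by
        rw [Finset.mul_sum]
        apply Finset.sum_congr rfl
        intro g _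
        rw [key g]; ring
    _ = ∑ x : G, ∑ g : G, dadeAux A L H c (x * g * x⁻¹) * F g := by
        simp_rw [Finset.sum_mul]
        rw [Finset.sum_comm]
    _ = ∑ x : G, ∑ t : G, dadeAux A L H c t * F t := by
        apply Finset.sum_congr rfl
        intro x _
        apply Fintype.sum_equiv (MulAut.conj x).toEquiv
        intro g
        show dadeAux A L H c (x * g * x⁻¹) * F g = dadeAux A L H c (x * g * x⁻¹) * F (x * g * x⁻¹)
        rw [hF g x]
    _ = (Nat.card G : ℂ) * ∑ t : G, dadeAux A L H c t * F t := by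
        rw [Finset.sum_const, Finset.card_univ, nsmul_eq_mul, Nat.card_eq_fintype_card]
    _ = _ := by
        rw [sum_dadeAux_mul]

end DadeSums

end Cfsg.Agent.Lib.Helper25
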