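import Mathlib
import Cfsg.Prelude.Def_Characters
import Cfsg.Agent.Lib.Helper26.VChar
import Cfsg.Agent.Lib.Helper80.CharOps

/-!
# Coherent labelling of a family of differences of irreducible characters

If `β i j` (additive in the pair `(i, j)`) is a difference of two distinct irreducible characters
whenever `i ≠ j`, and `β i j`, `β i k` have inner product one for distinct `i, j, k`, then there
are a sign `δ` and an injective family `μ` of irreducible characters with
`β i j = δ • (μ i - μ j)`.
-/

set_option autoImplicit false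

namespace Cfsg.Agent.Lib.Helper25

open Cfsg Cfsg.Agent.Lib.Helper26

variable {G : Type*} [Group G] [Fintype G]

theorem inner_diff_irr {a b a' b' : G → ℂ} (ha : IsIrrCharacter G a) (hb : IsIrrCharacter G b)
    (ha' : IsIrrCharacter G a') (hb' : IsIrrCharacter G b') :
    classInner (a - b) (a' - b') = (if a = a' then (1 : ℂ) else 0) - (if a = b' then 1 else 0)
      - (if b = a' then 1 else 0) + (if b = b' then 1 else 0) := by
  have key : ∀ {x y : G → ℂ}, IsIrrCharacter G x → IsIrrCharacter G y →
      classInner x y = if x = y then (1 : ℂ) else 0 := by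
    intro x y hx hy
    by_cases h : x = y
    · rw [if_pos h, h]; exact classInner_irr_self hy
    · rw [if_neg h]; exact classInner_irr_ne hx hy h
  rw [classInner_sub_left, classInner_sub_right, classInner_sub_right, key ha ha', key ha hb',
    key hb ha', key hb hb']
  ring

theorem share_of_inner_one {a b a' b' : G → ℂ} (ha : IsIrrCharacter G a)
    (hb : IsIrrCharacter G b) (ha' : IsIrrCharacter G a') (hb' : IsIrrCharacter G b')
    (hab : a ≠ b) (hab' : a' ≠ b') (h : classInner (a - b) (a' - b') = 1) :
    (a = a' ∧ b ≠ b') ∨ (b = b' ∧ a ≠ a') := by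
  rw [inner_diff_irr ha hb ha' hb'] at h
  split_ifs at h <;>
    first
      | (exfalso; exact hab' ((‹a = a'›).symm.trans ‹a = b'›))
      | (exfalso; exact hab ((‹a = a'›).trans (‹b = a'›).symm))
      | (exfalso; exact hab ((‹a = b'›).trans (‹b = b'›).symm))
      | (exfalso; exact hab' ((‹b = a'›).symm.trans ‹b = b'›))
      | (left; exact ⟨‹a = a'›, ‹¬ b = b'›⟩)
      | (right; exact ⟨‹b = b'›, ‹¬ a = a'›⟩)
      | (exfalso; norm_num at h)

omit [Group G] [Fintype G] in
theorem diff_core {I : Type*} [DecidableEq I] (β : I → I → (G → ℂ)) (i₀ : I)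
    (hadd : ∀ i j k, β i j + β j k = β i k)
    (a₀ : G → ℂ) (b : I → G → ℂ)
    (hβ : ∀ j, i₀ ≠ j → β i₀ j = a₀ - b j) :
    ∀ i j, β i j = (if i = i₀ then a₀ else b i) - (if j = i₀ then a₀ else b j) := by
  have h0 : ∀ i, β i i = 0 := by
    intro i
    have h := hadd i i i
    exact add_eq_left.1 h
  have hneg : ∀ i j, β j i = - β i j := by
    intro i j
    have h := hadd i j i
    rw [h0] at h
    exact (neg_eq_of_add_eq_zero_right h).symm
  intro i j
  by_cases hi : i = i₀ <;> by_cases hj : j = i₀
  · rw [hi, hj, h0, if_pos rfl, sub_self]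
  · rw [hi, if_pos rfl, if_neg hj, hβ j (Ne.symm hj)]
  · rw [hj, if_pos rfl, if_neg hi, hneg i₀ i, hβ i (Ne.symm hi), neg_sub]
  · rw [if_neg hi, if_neg hj, ← hadd i i₀ j, hneg i₀ i, hβ i (Ne.symm hi), hβ j (Ne.symm hj)]
    abel

theorem diff_coherent {I : Type*} (β : I → I → (G → ℂ)) (i₀ : I)
    (hadd : ∀ i j k, β i j + β j k = β i k)
    (hirr : ∀ i j, i ≠ j → ∃ a b : G → ℂ, IsIrrCharacter G a ∧ IsIrrCharacter G b ∧ a ≠ b ∧
      β i j = a - b)
    (hinner : ∀ i j k, i ≠ j → i ≠ k → j ≠ k → classInner (β i j) (β i k) = 1) :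
    ∃ (δ : ℂ) (μ : I → (G → ℂ)), (δ = 1 ∨ δ = -1) ∧ (∀ i, IsIrrCharacter G (μ i)) ∧
      Function.Injective μ ∧ ∀ i j, β i j = δ • (μ i - μ j) := by
  classical
  have h0 : ∀ i, β i i = 0 := by
    intro i
    have h := hadd i i i
    exact add_eq_left.1 h
  have hneg : ∀ i j, β j i = - β i j := by
    intro i j
    have h := hadd i j i
    rw [h0] at h
    exact (neg_eq_of_add_eq_zero_right h).symm
  choose! a b ha hb hab hβ using (fun j (hj : i₀ ≠ j) => hirr i₀ j hj)
  have hpair : ∀ j k, i₀ ≠ j → i₀ ≠ k → j ≠ k →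
      (a j = a k ∧ b j ≠ b k) ∨ (b j = b k ∧ a j ≠ a k) := by
    intro j k hj hk hjk
    have h := hinner i₀ j k hj hk hjk
    rw [hβ j hj, hβ k hk] at h
    exact share_of_inner_one (ha j hj) (hb j hj) (ha k hk) (hb k hk) (hab j hj) (hab k hk) h
  by_cases hex : ∃ j k, i₀ ≠ j ∧ i₀ ≠ k ∧ a j ≠ a k
  · obtain ⟨j₀, k₀, hj₀, hk₀, hne⟩ := hex
    have hjk₀ : j₀ ≠ k₀ := by rintro rfl; exact hne rfl
    have hb₀ : b j₀ = b k₀ := by
      rcases hpair j₀ k₀ hj₀ hk₀ hjk₀ with h | h
      · exact absurd h.1 hne
      · exact h.1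
    have hball : ∀ l, i₀ ≠ l → b l = b j₀ := by
      intro l hl
      by_cases hlj : l = j₀
      · rw [hlj]
      by_cases hlk : l = k₀
      · rw [hlk, hb₀]
      rcases hpair l j₀ hl hj₀ hlj with h | h
      · rcases hpair l k₀ hl hk₀ hlk with h' | h'
        · exact absurd (h.1.symm.trans h'.1) hne
        · exact absurd (h'.1.trans hb₀.symm) h.2
      · exact h.1
    have hainj : ∀ l m, i₀ ≠ l → i₀ ≠ m → l ≠ m → a l ≠ a m := by
      intro l m hl hm hlm
      rcases hpair l m hl hm hlm with h | h
      · exact absurd ((hball l hl).trans (hball m hm).symm) h.2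
      · exact h.2
    have hcore := diff_core (fun i j => β j i) i₀ (fun i j k => by
        show β j i + β k j = β k i
        rw [add_comm]; exact hadd k j i) (b j₀) a (fun j hj => by
        show β j i₀ = b j₀ - a j
        rw [hneg i₀ j, hβ j hj, hball j hj, neg_sub])
    refine ⟨-1, fun i => if i = i₀ then b j₀ else a i, Or.inr rfl, ?_, ?_, ?_⟩
    · intro i
      by_cases hi : i = i₀
      · simp only [hi, if_true]; exact hb j₀ hj₀
      · simp only [hi, if_false]; exact ha i (Ne.symm hi)
    · intro i j hij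
      by_cases hi : i = i₀ <;> by_cases hj : j = i₀
      · rw [hi, hj]
      · simp only [hi, hj, if_true, if_false] at hij
        exact absurd (hij.symm.trans (hball j (Ne.symm hj)).symm) (hab j (Ne.symm hj))
      · simp only [hi, hj, if_true, if_false] at hij
        exact absurd (hij.trans (hball i (Ne.symm hi)).symm) (hab i (Ne.symm hi))
      · simp only [hi, hj, if_false] at hij
        by_contra hne'
        exact hainj i j (Ne.symm hi) (Ne.symm hj) hne' hij
    · intro i j
      have h : β i j = (if j = i₀ then b j₀ else a j) - (if i = i₀ then b j₀ else a i) :=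
        hcore j i
      rw [h]
      simp only [neg_smul, one_smul, neg_sub]
  · push Not at hex
    by_cases hJ : ∃ j₀, i₀ ≠ j₀
    · obtain ⟨j₀, hj₀⟩ := hJ
      have haall : ∀ l, i₀ ≠ l → a l = a j₀ := fun l hl => hex l j₀ hl hj₀
      have hbinj : ∀ l m, i₀ ≠ l → i₀ ≠ m → l ≠ m → b l ≠ b m := by
        intro l m hl hm hlm
        rcases hpair l m hl hm hlm with h | h
        · exact h.2
        · exact absurd (hex l m hl hm) h.2
      have hcore := diff_core β i₀ hadd (a j₀) b (fun j hj => by rw [hβ j hj, haall j hj])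
      refine ⟨1, fun i => if i = i₀ then a j₀ else b i, Or.inl rfl, ?_, ?_, ?_⟩
      · intro i
        by_cases hi : i = i₀
        · simp only [hi, if_true]; exact ha j₀ hj₀
        · simp only [hi, if_false]; exact hb i (Ne.symm hi)
      · intro i j hij
        by_cases hi : i = i₀ <;> by_cases hj : j = i₀
        · rw [hi, hj]
        · simp only [hi, hj, if_true, if_false] at hij
          exact absurd ((haall j (Ne.symm hj)).trans hij) (hab j (Ne.symm hj))
        · simp only [hi, hj, if_true, if_false] at hij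
          exact absurd ((haall i (Ne.symm hi)).trans hij.symm) (hab i (Ne.symm hi))
        · simp only [hi, hj, if_false] at hij
          by_contra hne'
          exact hbinj i j (Ne.symm hi) (Ne.symm hj) hne' hij
      · intro i j
        rw [hcore i j, one_smul]
    · push Not at hJ
      refine ⟨1, fun _ => (fun _ => 1), Or.inl rfl,
        fun _ => Cfsg.Agent.Lib.Helper80.isIrrCharacter_one, ?_, ?_⟩
      · intro i j _
        rw [← hJ i, ← hJ j]
      · intro i j
        rw [← hJ i, ← hJ j, h0, sub_self, smul_zero]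

end Cfsg.Agent.Lib.Helper25
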