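import Mathlib
import Cfsg.Prelude.Def_OddOrderChar
import Cfsg.Agent.Lib.Helper25.SignedIrr
import Cfsg.Agent.Lib.Helper25.CyclicDual
import Cfsg.Agent.Lib.Helper25.Annih
import Cfsg.Agent.Lib.Helper25.IndFun

/-!
# Galois equivariance of a cyclic TI family
-/

set_option autoImplicit false

namespace Cfsg.Agent.Lib.Helper25

open Cfsg.Agent.Lib.Helper80

universe u

section GalLin

variable {W : Type*} [Group W]

/-- The Galois twist of a linear character. -/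
noncomputable def galLin (σ : ℂ ≃+* ℂ) (ω : W →* ℂˣ) : W →* ℂˣ :=
  (Units.map (σ : ℂ →* ℂ)).comp ω

theorem galLin_apply (σ : ℂ ≃+* ℂ) (ω : W →* ℂˣ) (w : W) :
    ((galLin σ ω w : ℂˣ) : ℂ) = σ (ω w : ℂ) := rfl

theorem galLin_one (σ : ℂ ≃+* ℂ) : galLin σ (1 : W →* ℂˣ) = 1 := by
  apply MonoidHom.ext
  intro w
  apply Units.ext
  rw [galLin_apply]
  simp

theorem galLin_mul (σ : ℂ ≃+* ℂ) (φ ψ : W →* ℂˣ) :
    galLin σ (φ * ψ) = galLin σ φ * galLin σ ψ := by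
  apply MonoidHom.ext
  intro w
  apply Units.ext
  rw [galLin_apply, MonoidHom.mul_apply, MonoidHom.mul_apply, Units.val_mul, Units.val_mul,
    map_mul, galLin_apply, galLin_apply]

theorem galLin_injective (σ : ℂ ≃+* ℂ) :
    Function.Injective (galLin σ : (W →* ℂˣ) → (W →* ℂˣ)) := by
  intro φ ψ h
  apply MonoidHom.ext
  intro w
  apply Units.ext
  have h1 := congrArg (fun f : W →* ℂˣ => ((f w : ℂˣ) : ℂ)) h
  simp only [galLin_apply] at h1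
  exact σ.injective h1

theorem galLin_apply_eq_one (σ : ℂ ≃+* ℂ) {φ : W →* ℂˣ} {w : W} (h : φ w = 1) :
    galLin σ φ w = 1 := by
  apply Units.ext
  rw [galLin_apply, h]
  simp

end GalLin

section Ind

variable {G : Type*} [Group G]

theorem galois_extendByZero (σ : ℂ ≃+* ℂ) (H : Subgroup G) (α : H → ℂ) (g : G) :
    σ (Cfsg.extendByZero H α g) = Cfsg.extendByZero H (fun h => σ (α h)) g := by
  by_cases hg : g ∈ H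
  · rw [extendByZero_of_mem H α hg, extendByZero_of_mem H _ hg]
  · rw [extendByZero_of_not_mem H α hg, extendByZero_of_not_mem H _ hg, map_zero]

theorem galois_indFun [Fintype G] (σ : ℂ ≃+* ℂ) (H : Subgroup G) (α : H → ℂ) (g : G) :
    σ (Cfsg.indFun H α g) = Cfsg.indFun H (fun h => σ (α h)) g := by
  unfold Cfsg.indFun
  rw [map_mul, map_inv₀, map_natCast, map_sum]
  congr 1
  exact Finset.sum_congr rfl (fun x _ => galois_extendByZero σ H α _)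

end Ind

section Family

variable {G : Type u} [Group G] [Fintype G]

theorem galois_equivariance_aux {D : Type*} [Mul D]
    (χ : D → G → ℂ) (σ : ℂ ≃+* ℂ) (s : D → D)
    (hirr : ∀ ω, IsSignedIrr (χ ω))
    (horth : ∀ ω ω', ω ≠ ω' → Cfsg.classInner (χ ω) (χ ω') = 0)
    (φ ψ ψ₂ : D)
    (hrel : (fun g => σ (χ φ g)) + (fun g => σ (χ ψ g)) - (fun g => σ (χ (φ * ψ) g)) =
      χ (s φ) + χ (s ψ) - χ (s φ * s ψ))
    (hrel₂ : (fun g => σ (χ φ g)) + (fun g => σ (χ ψ₂ g)) - (fun g => σ (χ (φ * ψ₂) g)) =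
      χ (s φ) + χ (s ψ₂) - χ (s φ * s ψ₂))
    (d1 : φ ≠ ψ) (d2 : φ ≠ φ * ψ) (d1' : φ ≠ ψ₂) (d2' : φ ≠ φ * ψ₂)
    (n1 : s φ ≠ s ψ) (n2 : s φ ≠ s φ * s ψ) (n3 : s ψ ≠ s ψ₂) (n4 : s ψ ≠ s φ * s ψ₂)
    (n5 : s φ * s ψ ≠ s ψ₂) (n6 : s φ * s ψ ≠ s φ * s ψ₂) :
    (fun g => σ (χ φ g)) = χ (s φ) := by
  have hf := (hirr φ).galois σ
  have key : ∀ ψ' : D, φ ≠ ψ' → φ ≠ φ * ψ' →
      ((fun g => σ (χ φ g)) + (fun g => σ (χ ψ' g)) - (fun g => σ (χ (φ * ψ') g)) =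
        χ (s φ) + χ (s ψ') - χ (s φ * s ψ')) →
      Cfsg.classInner (fun g => σ (χ φ g)) (χ (s φ)) +
        Cfsg.classInner (fun g => σ (χ φ g)) (χ (s ψ')) -
        Cfsg.classInner (fun g => σ (χ φ g)) (χ (s φ * s ψ')) = 1 := by
    intro ψ' e1 e2 hr
    rw [← classInner_add_right, ← classInner_sub_right, ← hr, classInner_sub_right,
      classInner_add_right, classInner_galois σ (hirr φ) (hirr φ),
      classInner_galois σ (hirr φ) (hirr ψ'), classInner_galois σ (hirr φ) (hirr (φ * ψ')),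
      classInner_self_signedIrr (hirr φ), horth _ _ e1, horth _ _ e2]
    ring
  exact eq_of_two_relations hf (hirr _) (hirr _) (hirr _) (horth _ _ n1) (horth _ _ n2)
    (horth _ _ n3) (horth _ _ n4) (horth _ _ n5) (horth _ _ n6) (key ψ d1 d2 hrel)
    (key ψ₂ d1' d2' hrel₂)

theorem galois_step {D : Type*} [CommGroup D] (χ : D → G → ℂ) (σ : ℂ ≃+* ℂ) (s : D → D)
    (P Q : D → Prop)
    (hirr : ∀ ω, IsSignedIrr (χ ω))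
    (horth : ∀ ω ω', ω ≠ ω' → Cfsg.classInner (χ ω) (χ ω') = 0)
    (hiff : ∀ φ₁ φ₂ ψ₁ ψ₂, P φ₁ → P φ₂ → Q ψ₁ → Q ψ₂ → φ₁ * ψ₁ = φ₂ * ψ₂ → φ₁ = φ₂ ∧ ψ₁ = ψ₂)
    (hP1 : P 1) (hQ1 : Q 1)
    (hsP : ∀ φ, P φ → P (s φ)) (hsQ : ∀ ψ, Q ψ → Q (s ψ)) (hsinj : Function.Injective s)
    (hs1 : s 1 = 1)
    (hQmul : ∀ ψ, Q ψ → Q (ψ * ψ)) (hsq : ∀ ψ : D, ψ ≠ 1 → ψ * ψ ≠ 1)
    (hrel : ∀ φ ψ, P φ → Q ψ → φ ≠ 1 → ψ ≠ 1 →
      (fun g => σ (χ φ g)) + (fun g => σ (χ ψ g)) - (fun g => σ (χ (φ * ψ) g)) =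
        χ (s φ) + χ (s ψ) - χ (s φ * s ψ))
    (φ ψ : D) (hφ : P φ) (hψ : Q ψ) (hφ1 : φ ≠ 1) (hψ1 : ψ ≠ 1) :
    (fun g => σ (χ φ g)) = χ (s φ) := by
  have hψ₂ : Q (ψ * ψ) := hQmul ψ hψ
  have hψ₂1 : ψ * ψ ≠ 1 := hsq ψ hψ1
  have hsφ1 : s φ ≠ 1 := fun h => hφ1 (hsinj (h.trans hs1.symm))
  have hsψ1 : s ψ ≠ 1 := fun h => hψ1 (hsinj (h.trans hs1.symm))
  have hsψ₂1 : s (ψ * ψ) ≠ 1 := fun h => hψ₂1 (hsinj (h.trans hs1.symm))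
  have hψψ₂ : ψ ≠ ψ * ψ := by
    intro h
    apply hψ1
    have h2 : ψ * 1 = ψ * ψ := by rw [mul_one]; exact h
    exact (mul_left_cancel h2).symm
  have hsψψ₂ : s ψ ≠ s (ψ * ψ) := fun h => hψψ₂ (hsinj h)
  -- the three basic separation facts
  have L1 : ∀ a b : D, P a → Q b → a = b → a = 1 := by
    intro a b ha hb h
    have h2 : a * 1 = 1 * b := by rw [mul_one, one_mul]; exact h
    exact (hiff a 1 1 b ha hP1 hQ1 hb h2).1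
  have L2 : ∀ a a' b : D, P a → P a' → Q b → a = a' * b → b = 1 := by
    intro a a' b ha ha' hb h
    have h2 : a * 1 = a' * b := by rw [mul_one]; exact h
    exact (hiff a a' 1 b ha ha' hQ1 hb h2).2.symm
  have L3 : ∀ b a' b' : D, Q b → P a' → Q b' → b = a' * b' → a' = 1 := by
    intro b a' b' hb ha' hb' h
    have h2 : 1 * b = a' * b' := by rw [one_mul]; exact h
    exact (hiff 1 a' b b' hP1 ha' hb hb' h2).1.symm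
  apply galois_equivariance_aux χ σ s hirr horth φ ψ (ψ * ψ) (hrel φ ψ hφ hψ hφ1 hψ1)
    (hrel φ (ψ * ψ) hφ hψ₂ hφ1 hψ₂1)
  · exact fun h => hφ1 (L1 φ ψ hφ hψ h)
  · exact fun h => hψ1 (L2 φ φ ψ hφ hφ hψ h)
  · exact fun h => hφ1 (L1 φ (ψ * ψ) hφ hψ₂ h)
  · exact fun h => hψ₂1 (L2 φ φ (ψ * ψ) hφ hφ hψ₂ h)
  · exact fun h => hsφ1 (L1 (s φ) (s ψ) (hsP φ hφ) (hsQ ψ hψ) h)
  · exact fun h => hsψ1 (L2 (s φ) (s φ) (s ψ) (hsP φ hφ) (hsP φ hφ) (hsQ ψ hψ) h)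
  · exact hsψψ₂
  · exact fun h => hsφ1 (L3 (s ψ) (s φ) (s (ψ * ψ)) (hsQ ψ hψ) (hsP φ hφ) (hsQ _ hψ₂) h)
  · exact fun h => hsφ1 (L3 (s (ψ * ψ)) (s φ) (s ψ) (hsQ _ hψ₂) (hsP φ hφ) (hsQ ψ hψ) h.symm)
  · exact fun h => hsψψ₂ (hiff (s φ) (s φ) (s ψ) (s (ψ * ψ)) (hsP φ hφ) (hsP φ hφ) (hsQ ψ hψ)
      (hsQ _ hψ₂) h).2

end Family

section Concrete

variable {G : Type u} [Group G] [Fintype G]

/-- Galois equivariance of a cyclic TI family: conjugating `χ ω` by a field automorphism gives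
the member attached to the conjugate linear character. -/
theorem galois_family (W₁ W₂ : Subgroup G)
    (hW : Cfsg.IsSelfNormalizingCyclic W₁ W₂) (hodd : Odd (Nat.card ↥(W₁ ⊔ W₂)))
    (χ : (↥(W₁ ⊔ W₂) →* ℂˣ) → (G → ℂ)) (hχ : Cfsg.IsCyclicTIFamily W₁ W₂ χ) (σ : ℂ ≃+* ℂ)
    (ω : ↥(W₁ ⊔ W₂) →* ℂˣ) : (fun g => σ (χ ω g)) = χ (galLin σ ω) := by
  classical
  obtain ⟨hne1, hne2, hdisj, hcomm, hcyc, -⟩ := hW
  have hc : ∀ a b : ↥(W₁ ⊔ W₂), a * b = b * a := fun a b => mul_comm' a b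
  set P : (↥(W₁ ⊔ W₂) →* ℂˣ) → Prop :=
    fun φ => ∀ w : ↥(W₁ ⊔ W₂), (w : G) ∈ W₂ → φ w = 1 with hP
  set Q : (↥(W₁ ⊔ W₂) →* ℂˣ) → Prop :=
    fun ψ => ∀ w : ↥(W₁ ⊔ W₂), (w : G) ∈ W₁ → ψ w = 1 with hQ
  have hirr : ∀ ω, IsSignedIrr (χ ω) := hχ.irr_or_neg
  have horth : ∀ ω ω', ω ≠ ω' → Cfsg.classInner (χ ω) (χ ω') = 0 := by
    intro ω ω' h
    rw [hχ.orthonormal ω ω', if_neg h]
  have hiff : ∀ φ₁ φ₂ ψ₁ ψ₂, P φ₁ → P φ₂ → Q ψ₁ → Q ψ₂ → φ₁ * ψ₁ = φ₂ * ψ₂ →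
      φ₁ = φ₂ ∧ ψ₁ = ψ₂ :=
    fun φ₁ φ₂ ψ₁ ψ₂ h1 h2 h3 h4 h =>
      (linChar_mul_eq_mul_iff W₁ W₂ hcomm φ₁ φ₂ ψ₁ ψ₂ h1 h2 h3 h4).mp h
  have hiff' : ∀ ψ₁ ψ₂ φ₁ φ₂, Q ψ₁ → Q ψ₂ → P φ₁ → P φ₂ → ψ₁ * φ₁ = ψ₂ * φ₂ →
      ψ₁ = ψ₂ ∧ φ₁ = φ₂ := by
    intro ψ₁ ψ₂ φ₁ φ₂ h3 h4 h1 h2 h
    have h' : φ₁ * ψ₁ = φ₂ * ψ₂ := by
      rw [mul_comm φ₁, mul_comm φ₂]
      exact h
    exact (hiff φ₁ φ₂ ψ₁ ψ₂ h1 h2 h3 h4 h').symm
  have hP1 : P 1 := fun _ _ => rfl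
  have hQ1 : Q 1 := fun _ _ => rfl
  have hsP : ∀ φ, P φ → P (galLin σ φ) := fun φ h w hw => galLin_apply_eq_one σ (h w hw)
  have hsQ : ∀ ψ, Q ψ → Q (galLin σ ψ) := fun ψ h w hw => galLin_apply_eq_one σ (h w hw)
  have hPmul : ∀ φ, P φ → P (φ * φ) := fun φ h w hw => by
    rw [MonoidHom.mul_apply, h w hw, mul_one]
  have hQmul : ∀ ψ, Q ψ → Q (ψ * ψ) := fun ψ h w hw => by
    rw [MonoidHom.mul_apply, h w hw, mul_one]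
  have hsq : ∀ ψ : ↥(W₁ ⊔ W₂) →* ℂˣ, ψ ≠ 1 → ψ * ψ ≠ 1 :=
    fun ψ h => linChar_mul_self_ne_one hodd ψ h
  have hrel : ∀ φ ψ, P φ → Q ψ → φ ≠ 1 → ψ ≠ 1 →
      (fun g => σ (χ φ g)) + (fun g => σ (χ ψ g)) - (fun g => σ (χ (φ * ψ) g)) =
        χ (galLin σ φ) + χ (galLin σ ψ) - χ (galLin σ φ * galLin σ ψ) := by
    intro φ ψ hφ hψ hφ1 hψ1
    have h1 := hχ.induced_eq φ ψ hφ1 hψ1 hφ hψ
    have hsφ1 : galLin σ φ ≠ 1 :=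
      fun h => hφ1 (galLin_injective σ (h.trans (galLin_one σ).symm))
    have hsψ1 : galLin σ ψ ≠ 1 :=
      fun h => hψ1 (galLin_injective σ (h.trans (galLin_one σ).symm))
    have h2 := hχ.induced_eq (galLin σ φ) (galLin σ ψ) hsφ1 hsψ1 (hsP φ hφ) (hsQ ψ hψ)
    funext g
    have h3 := congrArg σ (congrFun h1 g)
    rw [galois_indFun] at h3
    have h4 : (fun w : ↥(W₁ ⊔ W₂) => σ (1 - (φ w : ℂ) - (ψ w : ℂ) + (φ w : ℂ) * (ψ w : ℂ))) =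
        fun w => 1 - (galLin σ φ w : ℂ) - (galLin σ ψ w : ℂ) +
          (galLin σ φ w : ℂ) * (galLin σ ψ w : ℂ) := by
      funext w
      simp only [map_add, map_sub, map_mul, map_one, galLin_apply]
    rw [h4, h2] at h3
    simp only [map_add, map_sub, map_one] at h3
    simp only [Pi.add_apply, Pi.sub_apply]
    linear_combination h3
  have hexQ : ∃ ψ₀, Q ψ₀ ∧ ψ₀ ≠ 1 := by
    obtain ⟨b, hb1⟩ := (Subgroup.ne_bot_iff_exists_ne_one).mp hne2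
    have hu : (⟨(b : G), Subgroup.mem_sup_right b.2⟩ : ↥(W₁ ⊔ W₂)) ∉
        W₁.subgroupOf (W₁ ⊔ W₂) := by
      intro h
      have h0 : (b : G) ∈ W₁ ⊓ W₂ := ⟨Subgroup.mem_subgroupOf.mp h, b.2⟩
      rw [hdisj, Subgroup.mem_bot] at h0
      exact hb1 (Subtype.ext h0)
    obtain ⟨ψ₀, h1, h2⟩ := exists_linChar_trivial_on hc _ _ hu
    refine ⟨ψ₀, fun w hw => h1 w (Subgroup.mem_subgroupOf.mpr hw), ?_⟩
    intro h
    apply h2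
    rw [h]
    rfl
  have hexP : ∃ φ₀, P φ₀ ∧ φ₀ ≠ 1 := by
    obtain ⟨a, ha1⟩ := (Subgroup.ne_bot_iff_exists_ne_one).mp hne1
    have hu : (⟨(a : G), Subgroup.mem_sup_left a.2⟩ : ↥(W₁ ⊔ W₂)) ∉
        W₂.subgroupOf (W₁ ⊔ W₂) := by
      intro h
      have h0 : (a : G) ∈ W₁ ⊓ W₂ := ⟨a.2, Subgroup.mem_subgroupOf.mp h⟩
      rw [hdisj, Subgroup.mem_bot] at h0
      exact ha1 (Subtype.ext h0)
    obtain ⟨φ₀, h1, h2⟩ := exists_linChar_trivial_on hc _ _ hu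
    refine ⟨φ₀, fun w hw => h1 w (Subgroup.mem_subgroupOf.mpr hw), ?_⟩
    intro h
    apply h2
    rw [h]
    rfl
  obtain ⟨ψ₀, hψ₀, hψ₀1⟩ := hexQ
  obtain ⟨φ₀, hφ₀, hφ₀1⟩ := hexP
  have stepA : ∀ φ, P φ → φ ≠ 1 → (fun g => σ (χ φ g)) = χ (galLin σ φ) := fun φ hφ hφ1 =>
    galois_step χ σ (galLin σ) P Q hirr horth hiff hP1 hQ1 hsP hsQ (galLin_injective σ)
      (galLin_one σ) hQmul hsq hrel φ ψ₀ hφ hψ₀ hφ1 hψ₀1
  have hrel' : ∀ ψ φ, Q ψ → P φ → ψ ≠ 1 → φ ≠ 1 →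
      (fun g => σ (χ ψ g)) + (fun g => σ (χ φ g)) - (fun g => σ (χ (ψ * φ) g)) =
        χ (galLin σ ψ) + χ (galLin σ φ) - χ (galLin σ ψ * galLin σ φ) := by
    intro ψ φ hψ hφ hψ1 hφ1
    have h := hrel φ ψ hφ hψ hφ1 hψ1
    rw [mul_comm ψ φ, mul_comm (galLin σ ψ), add_comm (fun g => σ (χ ψ g)),
      add_comm (χ (galLin σ ψ))]
    exact h
  have stepB : ∀ ψ, Q ψ → ψ ≠ 1 → (fun g => σ (χ ψ g)) = χ (galLin σ ψ) := fun ψ hψ hψ1 =>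
    galois_step χ σ (galLin σ) Q P hirr horth hiff' hQ1 hP1 hsQ hsP (galLin_injective σ)
      (galLin_one σ) hPmul hsq hrel' ψ φ₀ hψ hφ₀ hψ1 hφ₀1
  obtain ⟨φ, ψ, hφ, hψ, rfl⟩ := exists_linChar_decomp W₁ W₂ hdisj hcomm hcyc ω
  by_cases hφ1 : φ = 1
  · by_cases hψ1 : ψ = 1
    · have e : φ * ψ = 1 := by rw [hφ1, hψ1]; exact one_mul (1 : ↥(W₁ ⊔ W₂) →* ℂˣ)
      rw [e, galLin_one, hχ.map_one]
      funext g
      simp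
    · have e : φ * ψ = ψ := by rw [hφ1]; exact one_mul ψ
      rw [e]
      exact stepB ψ hψ hψ1
  · by_cases hψ1 : ψ = 1
    · have e : φ * ψ = φ := by rw [hψ1]; exact mul_one φ
      rw [e]
      exact stepA φ hφ hφ1
    · have h := hrel φ ψ hφ hψ hφ1 hψ1
      rw [stepA φ hφ hφ1, stepB ψ hψ hψ1] at h
      rw [galLin_mul]
      exact sub_right_injective h

end Concrete

end Cfsg.Agent.Lib.Helper25
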