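import Mathlib

/-!
# Matrices `u φ + v ψ` with few nonzero entries
-/

set_option autoImplicit false

namespace Cfsg.Agent.Lib.Helper25

open Finset

theorem exists_row_le_one {Φ Ψ : Type*} [Fintype Φ] [Fintype Ψ] (M : Φ → Ψ → Prop)
    [∀ φ ψ, Decidable (M φ ψ)]
    (h : (univ.filter (fun x : Φ × Ψ => M x.1 x.2)).card < 2 * Fintype.card Φ) :
    ∃ φ₁, (univ.filter (fun ψ => M φ₁ ψ)).card ≤ 1 := by
  by_contra hcon
  have h2 : ∀ φ, 2 ≤ (univ.filter (fun ψ => M φ ψ)).card := by
    intro φ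
    by_contra h3
    exact hcon ⟨φ, by omega⟩
  have h4 : (univ.filter (fun x : Φ × Ψ => M x.1 x.2)).card =
      ∑ φ : Φ, (univ.filter (fun ψ => M φ ψ)).card := by
    rw [Finset.card_filter, Fintype.sum_prod_type]
    refine Finset.sum_congr rfl (fun φ _ => ?_)
    rw [Finset.card_filter]
  have h5 : ∑ _φ : Φ, 2 ≤ ∑ φ : Φ, (univ.filter (fun ψ => M φ ψ)).card :=
    Finset.sum_le_sum (fun φ _ => h2 φ)
  rw [Finset.sum_const, Finset.card_univ, smul_eq_mul] at h5
  omega

theorem exists_col_le_one {Φ Ψ : Type*} [Fintype Φ] [Fintype Ψ] (M : Φ → Ψ → Prop)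
    [∀ φ ψ, Decidable (M φ ψ)]
    (h : (univ.filter (fun x : Φ × Ψ => M x.1 x.2)).card < 2 * Fintype.card Ψ) :
    ∃ ψ₁, (univ.filter (fun φ => M φ ψ₁)).card ≤ 1 := by
  by_contra hcon
  have h2 : ∀ ψ, 2 ≤ (univ.filter (fun φ => M φ ψ)).card := by
    intro ψ
    by_contra h3
    exact hcon ⟨ψ, by omega⟩
  have h4 : (univ.filter (fun x : Φ × Ψ => M x.1 x.2)).card =
      ∑ ψ : Ψ, (univ.filter (fun φ => M φ ψ)).card := by
    rw [Finset.card_filter, Fintype.sum_prod_type_right]
    refine Finset.sum_congr rfl (fun ψ _ => ?_)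
    rw [Finset.card_filter]
  have h5 : ∑ _ψ : Ψ, 2 ≤ ∑ ψ : Ψ, (univ.filter (fun φ => M φ ψ)).card :=
    Finset.sum_le_sum (fun ψ _ => h2 ψ)
  rw [Finset.sum_const, Finset.card_univ, smul_eq_mul] at h5
  omega

/-- A matrix of the shape `u φ + v ψ` with at least 3 rows, at least two more columns than
rows, and fewer than twice as many nonzero entries as rows, is supported on a single column or
a single row, where it is constant. -/
theorem sum_matrix_structure {Φ Ψ : Type*} [Fintype Φ] [Fintype Ψ] [DecidableEq Φ]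
    [DecidableEq Ψ] (u : Φ → ℂ) (v : Ψ → ℂ) (hp : 3 ≤ Fintype.card Φ)
    (hq : Fintype.card Φ + 2 ≤ Fintype.card Ψ)
    (hZ : (univ.filter (fun x : Φ × Ψ => u x.1 + v x.2 ≠ 0)).card < 2 * Fintype.card Φ) :
    (∃ (ψ₀ : Ψ) (a : ℂ), ∀ φ ψ, u φ + v ψ = if ψ = ψ₀ then a else 0) ∨
      (∃ (φ₀ : Φ) (a : ℂ), ∀ φ ψ, u φ + v ψ = if φ = φ₀ then a else 0) := by
  have hΦne : Nonempty Φ := Fintype.card_pos_iff.mp (by omega)
  have hΨne : Nonempty Ψ := Fintype.card_pos_iff.mp (by omega)
  obtain ⟨φ₁, h1⟩ := exists_row_le_one (fun φ ψ => u φ + v ψ ≠ 0) hZ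
  obtain ⟨ψ₁, h2⟩ := exists_col_le_one (fun φ ψ => u φ + v ψ ≠ 0) (by omega)
  obtain ⟨ψ₀, hψ₀⟩ := Finset.card_le_one_iff_subset_singleton.mp h1
  obtain ⟨φ₀, hφ₀⟩ := Finset.card_le_one_iff_subset_singleton.mp h2
  have hv : ∀ ψ, ψ ≠ ψ₀ → v ψ = -u φ₁ := by
    intro ψ hψ
    by_contra hne
    have h3 : ψ ∈ univ.filter (fun ψ => u φ₁ + v ψ ≠ 0) := by
      rw [mem_filter]
      refine ⟨mem_univ _, ?_⟩
      intro h4
      apply hne
      linear_combination h4
    exact hψ (mem_singleton.mp (hψ₀ h3))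
  have hu : ∀ φ, φ ≠ φ₀ → u φ = -v ψ₁ := by
    intro φ hφ
    by_contra hne
    have h3 : φ ∈ univ.filter (fun φ => u φ + v ψ₁ ≠ 0) := by
      rw [mem_filter]
      refine ⟨mem_univ _, ?_⟩
      intro h4
      apply hne
      linear_combination h4
    exact hφ (mem_singleton.mp (hφ₀ h3))
  by_cases hst : -v ψ₁ + -u φ₁ = 0
  · by_cases ha : u φ₀ + -u φ₁ = 0
    · left
      refine ⟨ψ₀, -v ψ₁ + v ψ₀, ?_⟩
      intro φ ψ
      by_cases hψ : ψ = ψ₀
      · rw [if_pos hψ, hψ]
        by_cases hφ : φ = φ₀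
        · rw [hφ]
          linear_combination ha - hst
        · rw [hu φ hφ]
      · rw [if_neg hψ, hv ψ hψ]
        by_cases hφ : φ = φ₀
        · rw [hφ]
          exact ha
        · rw [hu φ hφ]
          exact hst
    · by_cases hb : -v ψ₁ + v ψ₀ = 0
      · right
        refine ⟨φ₀, u φ₀ + -u φ₁, ?_⟩
        intro φ ψ
        by_cases hφ : φ = φ₀
        · rw [if_pos hφ, hφ]
          by_cases hψ : ψ = ψ₀
          · rw [hψ]
            linear_combination hb - hst
          · rw [hv ψ hψ]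
        · rw [if_neg hφ, hu φ hφ]
          by_cases hψ : ψ = ψ₀
          · rw [hψ]
            exact hb
          · rw [hv ψ hψ]
            exact hst
      · exfalso
        have hsub : ({φ₀} ×ˢ (univ.erase ψ₀)) ∪ ((univ.erase φ₀) ×ˢ {ψ₀}) ⊆
            univ.filter (fun x : Φ × Ψ => u x.1 + v x.2 ≠ 0) := by
          intro x hx
          rw [mem_union, mem_product, mem_product] at hx
          rw [mem_filter]
          refine ⟨mem_univ _, ?_⟩
          rcases hx with ⟨h1, h2⟩ | ⟨h1, h2⟩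
          · rw [mem_singleton] at h1
            rw [h1, hv _ (ne_of_mem_erase h2)]
            exact ha
          · rw [mem_singleton] at h2
            rw [h2, hu _ (ne_of_mem_erase h1)]
            exact hb
        have hdisj : Disjoint ({φ₀} ×ˢ (univ.erase ψ₀)) ((univ.erase φ₀) ×ˢ ({ψ₀} : Finset Ψ)) := by
          rw [Finset.disjoint_left]
          intro x hx1 hx2
          rw [mem_product] at hx1 hx2
          exact (ne_of_mem_erase hx2.1) (mem_singleton.mp hx1.1)
        have hcard := Finset.card_le_card hsub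
        rw [Finset.card_union_of_disjoint hdisj, card_product, card_product, card_singleton,
          card_singleton, card_erase_of_mem (mem_univ _), card_erase_of_mem (mem_univ _),
          card_univ, card_univ, one_mul, mul_one] at hcard
        omega
  · exfalso
    have hsub : (univ.erase φ₀) ×ˢ (univ.erase ψ₀) ⊆
        univ.filter (fun x : Φ × Ψ => u x.1 + v x.2 ≠ 0) := by
      intro x hx
      rw [mem_product] at hx
      rw [mem_filter]
      refine ⟨mem_univ _, ?_⟩
      rw [hu _ (ne_of_mem_erase hx.1), hv _ (ne_of_mem_erase hx.2)]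
      exact hst
    have hcard := Finset.card_le_card hsub
    rw [card_product, card_erase_of_mem (mem_univ _), card_erase_of_mem (mem_univ _), card_univ,
      card_univ] at hcard
    obtain ⟨p', hp'⟩ : ∃ p', Fintype.card Φ = p' + 1 := ⟨Fintype.card Φ - 1, by omega⟩
    obtain ⟨q', hq'⟩ : ∃ q', Fintype.card Ψ = q' + 1 := ⟨Fintype.card Ψ - 1, by omega⟩
    rw [hp', hq'] at hcard
    rw [hp'] at hZ hp
    rw [hp', hq'] at hq
    simp only [Nat.add_sub_cancel] at hcard
    have h5 : 2 * q' ≤ p' * q' := Nat.mul_le_mul_right q' (by omega)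
    generalize p' * q' = k at hcard h5
    omega

end Cfsg.Agent.Lib.Helper25
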