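import Mathlib
import Cfsg.Prelude.Def_Characters
import Cfsg.Agent.Lib.Helper25.PF43
import Cfsg.Agent.Lib.Helper25.DiffCoh
import Cfsg.Agent.Lib.Helper25.NormTwo
import Cfsg.Agent.Lib.Helper25.Annih
import Cfsg.Agent.Lib.Helper25.LinChar
import Cfsg.Agent.Lib.Helper3.BrauerIdeal
import Cfsg.Agent.Lib.Helper80.PrimeCodeg
import Cfsg.Agent.Lib.Helper75.CharInd
import Cfsg.Agent.Lib.Helper82.CharCount

/-!
# Peterfalvi (4.3): the irreducible characters `μ ω` attached to the linear characters of `W`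

For `ω, ω'` agreeing on `W₂`, the induced difference `pfBeta ω ω'` is a difference of two
irreducible characters; within a family (fixed restriction to `W₂`) they are coherently
labelled.
-/

set_option autoImplicit false

namespace Cfsg.Agent.Lib.Helper25

open Cfsg Cfsg.Agent.Lib.Helper26
open scoped ComplexConjugate

universe u

/-- a linear character as a complex-valued function -/
def linFun {W : Type*} [Monoid W] (ω : W →* ℂˣ) : W → ℂ := fun w => (ω w : ℂ)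

theorem linFun_injective {W : Type*} [Monoid W] :
    Function.Injective (linFun : (W →* ℂˣ) → (W → ℂ)) := by
  intro ω ω' h
  apply MonoidHom.ext
  intro w
  apply Units.ext
  exact congrFun h w

theorem linFun_irr {W : Type*} [Group W] (ω : W →* ℂˣ) : IsIrrCharacter W (linFun ω) :=
  Cfsg.Agent.Lib.Helper80.isIrrCharacter_of_hom ω

variable {L : Type u} [Group L] [Fintype L] {K W₁ W₂ : Subgroup L}

/-- two linear characters of `W` agree on `W₂` -/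
def relW₂ (W₁ W₂ : Subgroup L) (ω ω' : ↥(W₁ ⊔ W₂) →* ℂˣ) : Prop :=
  ∀ w : ↥(W₁ ⊔ W₂), (w : L) ∈ W₂ → ω w = ω' w

omit [Fintype L] in
theorem relW₂_refl (ω : ↥(W₁ ⊔ W₂) →* ℂˣ) : relW₂ W₁ W₂ ω ω := fun _ _ => rfl

omit [Fintype L] in
theorem relW₂_symm {ω ω' : ↥(W₁ ⊔ W₂) →* ℂˣ} (h : relW₂ W₁ W₂ ω ω') : relW₂ W₁ W₂ ω' ω :=
  fun w hw => (h w hw).symm

omit [Fintype L] in
theorem relW₂_trans {ω ω' ω'' : ↥(W₁ ⊔ W₂) →* ℂˣ} (h : relW₂ W₁ W₂ ω ω')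
    (h' : relW₂ W₁ W₂ ω' ω'') : relW₂ W₁ W₂ ω ω'' :=
  fun w hw => (h w hw).trans (h' w hw)

/-- the function induced from the difference of two linear characters of `W` -/
noncomputable def pfBeta (W₁ W₂ : Subgroup L) (ω ω' : ↥(W₁ ⊔ W₂) →* ℂˣ) : L → ℂ :=
  Cfsg.indFun (W₁ ⊔ W₂) (fun w => (ω w : ℂ) - (ω' w : ℂ))

theorem pfBeta_eq (ω ω' : ↥(W₁ ⊔ W₂) →* ℂˣ) :
    pfBeta W₁ W₂ ω ω' = Cfsg.indFun (W₁ ⊔ W₂) (linFun ω) - Cfsg.indFun (W₁ ⊔ W₂) (linFun ω') := by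
  rw [← Cfsg.Agent.Lib.Helper3.indFun_sub]
  rfl

theorem pfBeta_add (ω ω' ω'' : ↥(W₁ ⊔ W₂) →* ℂˣ) :
    pfBeta W₁ W₂ ω ω' + pfBeta W₁ W₂ ω' ω'' = pfBeta W₁ W₂ ω ω'' := by
  rw [pfBeta_eq, pfBeta_eq, pfBeta_eq]
  abel

theorem pfBeta_gen (ω ω' : ↥(W₁ ⊔ W₂) →* ℂˣ) :
    IsGeneralizedCharacter L (pfBeta W₁ W₂ ω ω') :=
  ⟨_, _, Cfsg.Agent.Lib.Helper75.isCharacter_indFun _ (isCharacter_of_irr (linFun_irr ω)),
    Cfsg.Agent.Lib.Helper75.isCharacter_indFun _ (isCharacter_of_irr (linFun_irr ω')),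
    pfBeta_eq ω ω'⟩

theorem pfBeta_one (ω ω' : ↥(W₁ ⊔ W₂) →* ℂˣ) : pfBeta W₁ W₂ ω ω' 1 = 0 := by
  apply indFun_one_eq_zero
  simp

theorem pfBeta_inner (h : PFSetup K W₁ W₂) (hW₁ : W₁ ≠ ⊥)
    [DecidableEq (↥(W₁ ⊔ W₂) →* ℂˣ)] {ω₁ ω₂ ω₃ ω₄ : ↥(W₁ ⊔ W₂) →* ℂˣ}
    (h12 : relW₂ W₁ W₂ ω₁ ω₂) (h34 : relW₂ W₁ W₂ ω₃ ω₄) :
    classInner (pfBeta W₁ W₂ ω₁ ω₂) (pfBeta W₁ W₂ ω₃ ω₄) =
      (if ω₁ = ω₃ then (1 : ℂ) else 0) - (if ω₁ = ω₄ then 1 else 0)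
        - (if ω₂ = ω₃ then 1 else 0) + (if ω₂ = ω₄ then 1 else 0) := by
  haveI : Fintype ↥(W₁ ⊔ W₂) := Fintype.ofFinite _
  have key : ∀ a b : ↥(W₁ ⊔ W₂) →* ℂˣ,
      (if linFun a = linFun b then (1 : ℂ) else 0) = if a = b then 1 else 0 := by
    intro a b
    by_cases hab : a = b
    · rw [if_pos hab, if_pos (congrArg linFun hab)]
    · rw [if_neg hab, if_neg (fun h' => hab (linFun_injective h'))]
  unfold pfBeta
  rw [h.inner_ind hW₁ _ _ (fun w hw => by rw [h12 w hw, sub_self])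
    (fun w hw => by rw [h34 w hw, sub_self])]
  have e := inner_diff_irr (linFun_irr ω₁) (linFun_irr ω₂) (linFun_irr ω₃) (linFun_irr ω₄)
  rw [key, key, key, key] at e
  exact e

theorem pfBeta_diff (h : PFSetup K W₁ W₂) (hW₁ : W₁ ≠ ⊥) {ω ω' : ↥(W₁ ⊔ W₂) →* ℂˣ}
    (hrel : relW₂ W₁ W₂ ω ω') (hne : ω ≠ ω') :
    ∃ a b : L → ℂ, IsIrrCharacter L a ∧ IsIrrCharacter L b ∧ a ≠ b ∧
      pfBeta W₁ W₂ ω ω' = a - b := by
  classical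
  apply gen_norm_two (pfBeta_gen ω ω') _ (pfBeta_one ω ω')
  rw [pfBeta_inner h hW₁ hrel hrel, if_pos rfl, if_neg hne, if_neg (Ne.symm hne), if_pos rfl]
  norm_num

/-- the coherent labelling of one family -/
theorem exists_family (h : PFSetup K W₁ W₂) (hW₁ : W₁ ≠ ⊥) (ρ : ↥(W₁ ⊔ W₂) →* ℂˣ) :
    ∃ (δ : ℂ) (μ : (↥(W₁ ⊔ W₂) →* ℂˣ) → (L → ℂ)), (δ = 1 ∨ δ = -1) ∧
      (∀ ω, relW₂ W₁ W₂ ρ ω → IsIrrCharacter L (μ ω)) ∧
      (∀ ω ω', relW₂ W₁ W₂ ρ ω → relW₂ W₁ W₂ ρ ω' → μ ω = μ ω' → ω = ω') ∧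
      (∀ ω ω', relW₂ W₁ W₂ ρ ω → relW₂ W₁ W₂ ρ ω' →
        pfBeta W₁ W₂ ω ω' = δ • (μ ω - μ ω')) := by
  classical
  have hrel : ∀ i j : {ω : ↥(W₁ ⊔ W₂) →* ℂˣ // relW₂ W₁ W₂ ρ ω}, relW₂ W₁ W₂ i.1 j.1 :=
    fun i j => relW₂_trans (relW₂_symm i.2) j.2
  obtain ⟨δ, μ, hδ, hirr, hinj, hβ⟩ := diff_coherent
    (I := {ω : ↥(W₁ ⊔ W₂) →* ℂˣ // relW₂ W₁ W₂ ρ ω})
    (fun i j => pfBeta W₁ W₂ i.1 j.1) ⟨ρ, relW₂_refl ρ⟩
    (fun i j k => pfBeta_add i.1 j.1 k.1)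
    (fun i j hij => pfBeta_diff h hW₁ (hrel i j) (fun h' => hij (Subtype.ext h')))
    (fun i j k hij hik hjk => by
      show classInner (pfBeta W₁ W₂ i.1 j.1) (pfBeta W₁ W₂ i.1 k.1) = 1
      rw [pfBeta_inner h hW₁ (hrel i j) (hrel i k), if_pos rfl,
        if_neg (fun h' => hik (Subtype.ext h')), if_neg (fun h' => hij (Subtype.ext h').symm),
        if_neg (fun h' => hjk (Subtype.ext h'))]
      norm_num)
  refine ⟨δ, fun ω => if hω : relW₂ W₁ W₂ ρ ω then μ ⟨ω, hω⟩ else 0, hδ, ?_, ?_, ?_⟩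
  · intro ω hω
    beta_reduce
    rw [dif_pos hω]
    exact hirr ⟨ω, hω⟩
  · intro ω ω' hω hω' heq
    beta_reduce at heq
    rw [dif_pos hω, dif_pos hω'] at heq
    exact congrArg Subtype.val (hinj heq)
  · intro ω ω' hω hω'
    beta_reduce
    rw [dif_pos hω, dif_pos hω']
    exact hβ ⟨ω, hω⟩ ⟨ω', hω'⟩

end Cfsg.Agent.Lib.Helper25
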