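import Mathlib
import Cfsg.Prelude.Def_Characters
import Cfsg.Agent.Lib.Helper25.PF43b
import Cfsg.Agent.Lib.Helper25.IrrComp

/-!
# Peterfalvi (4.3): global family, character values on `W ∖ W₂`, congruence
-/

set_option autoImplicit false

namespace Cfsg.Agent.Lib.Helper25

open Cfsg Cfsg.Agent.Lib.Helper26
open scoped ComplexConjugate

universe u

variable {L : Type u} [Group L] [Fintype L] {K W₁ W₂ : Subgroup L}

omit [Fintype L] in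
theorem PFSetup.commSub (h : PFSetup K W₁ W₂) : ∀ a b : ↥(W₁ ⊔ W₂), a * b = b * a :=
  fun a b => Subtype.ext (h.commW a a.2 b b.2)

omit [Fintype L] in
/-- a linear character of `W` trivial on `W₂` and nontrivial at a given element outside `W₂` -/
theorem PFSetup.exists_shift [Finite L] (h : PFSetup K W₁ W₂) (w : ↥(W₁ ⊔ W₂)) (hw : (w : L) ∉ W₂) :
    ∃ φ : ↥(W₁ ⊔ W₂) →* ℂˣ, (∀ ω, relW₂ W₁ W₂ ω (ω * φ)) ∧ φ w ≠ 1 := by
  obtain ⟨φ, hφ1, hφw⟩ := exists_linChar_trivial_on h.commSub (W₂.subgroupOf (W₁ ⊔ W₂)) w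
    (by rw [Subgroup.mem_subgroupOf]; exact hw)
  refine ⟨φ, ?_, hφw⟩
  intro ω v hv
  rw [MonoidHom.mul_apply, hφ1 v (Subgroup.mem_subgroupOf.2 hv), mul_one]

theorem exists_global (h : PFSetup K W₁ W₂) (hW₁ : W₁ ≠ ⊥) :
    ∃ (μ : (↥(W₁ ⊔ W₂) →* ℂˣ) → (L → ℂ)) (δ : (↥(W₁ ⊔ W₂) →* ℂˣ) → ℂ),
      Function.Injective μ ∧ (∀ ω, IsIrrCharacter L (μ ω)) ∧ (∀ ω, δ ω = 1 ∨ δ ω = -1) ∧
      (∀ ω ω', relW₂ W₁ W₂ ω ω' →
        δ ω = δ ω' ∧ pfBeta W₁ W₂ ω ω' = δ ω • (μ ω - μ ω')) := by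
  classical
  choose δ' μ' hδ' hirr' hinj' hβ' using exists_family h hW₁
  let s : Setoid (↥(W₁ ⊔ W₂) →* ℂˣ) :=
    ⟨relW₂ W₁ W₂, ⟨relW₂_refl, relW₂_symm, relW₂_trans⟩⟩
  let rep : (↥(W₁ ⊔ W₂) →* ℂˣ) → (↥(W₁ ⊔ W₂) →* ℂˣ) := fun ω => (Quotient.mk s ω).out
  have hrep1 : ∀ ω, relW₂ W₁ W₂ (rep ω) ω := fun ω => Quotient.mk_out (s := s) ω
  have hrep2 : ∀ ω ω', relW₂ W₁ W₂ ω ω' → rep ω = rep ω' :=
    fun ω ω' hr => congrArg Quotient.out (Quotient.sound (s := s) hr)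
  refine ⟨fun ω => μ' (rep ω) ω, fun ω => δ' (rep ω), ?_, fun ω => hirr' (rep ω) ω (hrep1 ω),
    fun ω => hδ' (rep ω), ?_⟩
  · intro ω ω' heq
    beta_reduce at heq
    by_cases hr : relW₂ W₁ W₂ ω ω'
    · have e := hrep2 ω ω' hr
      rw [← e] at heq
      exact hinj' (rep ω) ω ω' (hrep1 ω) (relW₂_trans (hrep1 ω) hr) heq
    · exfalso
      obtain ⟨x, hx, hx1, hxT⟩ := h.exists_mem_tiSet hW₁
      obtain ⟨φ, hφrel, hφu⟩ := h.exists_shift ⟨x, hxT.1⟩ hxT.2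
      have hφne : φ ≠ 1 := by rintro rfl; exact hφu rfl
      have hcancel : ∀ ψ : ↥(W₁ ⊔ W₂) →* ℂˣ, ψ ≠ ψ * φ := by
        intro ψ h'
        apply hφne
        apply MonoidHom.ext
        intro v
        have h2 := DFunLike.congr_fun h' v
        rw [MonoidHom.mul_apply] at h2
        have h3 : ψ v * φ v = ψ v * 1 := by rw [mul_one]; exact h2.symm
        exact mul_left_cancel h3
      have hne2 : ω ≠ ω * φ := hcancel ω
      have hne4 : ω' ≠ ω' * φ := hcancel ω'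
      have hin := pfBeta_inner h hW₁ (hφrel ω) (hφrel ω')
      have n1 : ω ≠ ω' := fun h' => hr (h' ▸ relW₂_refl ω)
      have n2 : ω ≠ ω' * φ := fun h' => hr (by rw [h']; exact relW₂_symm (hφrel ω'))
      have n3 : ω * φ ≠ ω' := fun h' => hr (by rw [← h']; exact hφrel ω)
      have n4 : ω * φ ≠ ω' * φ := fun h' => n1 (mul_right_cancel h')
      rw [if_neg n1, if_neg n2, if_neg n3, if_neg n4] at hin
      have hb1 := hβ' (rep ω) ω (ω * φ) (hrep1 ω) (relW₂_trans (hrep1 ω) (hφrel ω))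
      have hb2 := hβ' (rep ω') ω' (ω' * φ) (hrep1 ω') (relW₂_trans (hrep1 ω') (hφrel ω'))
      have hA := hirr' (rep ω) ω (hrep1 ω)
      have hB := hirr' (rep ω) (ω * φ) (relW₂_trans (hrep1 ω) (hφrel ω))
      have hC := hirr' (rep ω') ω' (hrep1 ω')
      have hD := hirr' (rep ω') (ω' * φ) (relW₂_trans (hrep1 ω') (hφrel ω'))
      have hAB : μ' (rep ω) ω ≠ μ' (rep ω) (ω * φ) := fun h' =>
        hne2 (hinj' (rep ω) ω (ω * φ) (hrep1 ω) (relW₂_trans (hrep1 ω) (hφrel ω)) h')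
      have hCD : μ' (rep ω') ω' ≠ μ' (rep ω') (ω' * φ) := fun h' =>
        hne4 (hinj' (rep ω') ω' (ω' * φ) (hrep1 ω') (relW₂_trans (hrep1 ω') (hφrel ω')) h')
      rw [hb1, hb2, classInner_smul_left, classInner_smul_right, inner_diff_irr hA hB hC hD,
        if_pos heq, if_neg (fun h' => hCD (heq.symm.trans h')),
        if_neg (fun h' => hAB (heq.trans h'.symm))] at hin
      rcases hδ' (rep ω) with h1 | h1 <;> rcases hδ' (rep ω') with h2 | h2 <;>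
        rw [h1, h2] at hin <;> split_ifs at hin <;> norm_num at hin
  · intro ω ω' hr
    have e := hrep2 ω ω' hr
    refine ⟨?_, ?_⟩
    · show δ' (rep ω) = δ' (rep ω')
      rw [e]
    · show pfBeta W₁ W₂ ω ω' = δ' (rep ω) • (μ' (rep ω) ω - μ' (rep ω') ω')
      rw [← e]
      exact hβ' (rep ω) ω ω' (hrep1 ω) (relW₂_trans (hrep1 ω) hr)

theorem pf_values (h : PFSetup K W₁ W₂) (hW₁ : W₁ ≠ ⊥)
    (μ : (↥(W₁ ⊔ W₂) →* ℂˣ) → (L → ℂ)) (δ : (↥(W₁ ⊔ W₂) →* ℂˣ) → ℂ)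
    (hinj : Function.Injective μ) (hirr : ∀ ω, IsIrrCharacter L (μ ω))
    (hδ : ∀ ω, δ ω = 1 ∨ δ ω = -1)
    (hfam : ∀ ω ω', relW₂ W₁ W₂ ω ω' →
      δ ω = δ ω' ∧ pfBeta W₁ W₂ ω ω' = δ ω • (μ ω - μ ω'))
    (w : ↥(W₁ ⊔ W₂)) (hw : (w : L) ∉ W₂) :
    (∀ ω, μ ω w = δ ω * (ω w : ℂ)) ∧
      (∀ θ : L → ℂ, IsIrrCharacter L θ → (∀ ω, θ ≠ μ ω) → θ w = 0) := by
  classical
  haveI : Finite (↥(W₁ ⊔ W₂) →* ℂˣ) := finite_linChar _
  haveI : Fintype (↥(W₁ ⊔ W₂) →* ℂˣ) := Fintype.ofFinite _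
  haveI : Fintype (IrrCharacter L) := Fintype.ofFinite _
  obtain ⟨c, hcdef⟩ : ∃ c : (↥(W₁ ⊔ W₂) →* ℂˣ) → ℂ, ∀ ω, c ω = μ ω w - δ ω * (ω w : ℂ) :=
    ⟨fun ω => μ ω w - δ ω * (ω w : ℂ), fun _ => rfl⟩
  have hc : ∀ ω ω', relW₂ W₁ W₂ ω ω' → c ω = c ω' := by
    intro ω ω' hr
    obtain ⟨hδeq, hb⟩ := hfam ω ω' hr
    have hv : pfBeta W₁ W₂ ω ω' w = (ω w : ℂ) - (ω' w : ℂ) :=
      h.indFun_eq hW₁ _ (fun v hv => by rw [hr v hv, sub_self]) w hw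
    rw [hb] at hv
    simp only [Pi.smul_apply, Pi.sub_apply, smul_eq_mul] at hv
    have hsq : δ ω * δ ω = 1 := by rcases hδ ω with e | e <;> rw [e] <;> norm_num
    have h3 : μ ω w - μ ω' w = δ ω * ((ω w : ℂ) - (ω' w : ℂ)) := by
      rw [← hv, ← mul_assoc, hsq, one_mul]
    rw [hcdef, hcdef, ← hδeq]
    linear_combination h3
  obtain ⟨φ, hφrel, hφw⟩ := h.exists_shift w hw
  obtain ⟨S, hSdef⟩ : ∃ S : ℂ, S = ∑ ω : ↥(W₁ ⊔ W₂) →* ℂˣ, δ ω * (ω w : ℂ) * conj (c ω) :=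
    ⟨_, rfl⟩
  have hS : S = 0 := by
    have e : S = (φ w : ℂ) * S := by
      calc S = ∑ ω : ↥(W₁ ⊔ W₂) →* ℂˣ, δ ω * (ω w : ℂ) * conj (c ω) := hSdef
        _ = ∑ ω : ↥(W₁ ⊔ W₂) →* ℂˣ, δ (ω * φ) * (((ω * φ) w : ℂˣ) : ℂ) * conj (c (ω * φ)) :=
            (Equiv.sum_comp (Equiv.mulRight φ)
              (fun ω : ↥(W₁ ⊔ W₂) →* ℂˣ => δ ω * (ω w : ℂ) * conj (c ω))).symm
        _ = ∑ ω : ↥(W₁ ⊔ W₂) →* ℂˣ, (φ w : ℂ) * (δ ω * (ω w : ℂ) * conj (c ω)) := by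
            refine Finset.sum_congr rfl (fun ω _ => ?_)
            rw [← (hfam ω (ω * φ) (hφrel ω)).1, ← hc ω (ω * φ) (hφrel ω), MonoidHom.mul_apply,
              Units.val_mul]
            ring
        _ = (φ w : ℂ) * S := by rw [← Finset.mul_sum, hSdef]
    have hne : (φ w : ℂ) ≠ 1 := fun h' => hφw (Units.ext h')
    have h4 : (1 - (φ w : ℂ)) * S = 0 := by linear_combination e
    rcases mul_eq_zero.1 h4 with h' | h'
    · exact absurd (sub_eq_zero.1 h').symm hne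
    · exact h'
  have hnorm : ∀ ω : ↥(W₁ ⊔ W₂) →* ℂˣ, Complex.normSq (μ ω w) =
      1 + Complex.normSq (c ω) + 2 * (δ ω * (ω w : ℂ) * conj (c ω)).re := by
    intro ω
    have e : μ ω w = δ ω * (ω w : ℂ) + c ω := by rw [hcdef]; ring
    rw [e, Complex.normSq_add]
    have h1 : Complex.normSq (δ ω * (ω w : ℂ)) = 1 := by
      rw [Complex.normSq_mul]
      have hd : Complex.normSq (δ ω) = 1 := by
        rcases hδ ω with e' | e' <;> rw [e'] <;> simp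
      have ho : Complex.normSq (ω w : ℂ) = 1 := by
        have h5 := conj_linChar ω w
        have h2 : ((Complex.normSq (ω w : ℂ) : ℝ) : ℂ) = 1 := by
          rw [← Complex.mul_conj, h5, ← Units.val_mul, mul_inv_cancel, Units.val_one]
        exact_mod_cast h2
      rw [hd, ho, one_mul]
    rw [h1]
  have hsum1 : ∑ ω : ↥(W₁ ⊔ W₂) →* ℂˣ, Complex.normSq (μ ω w) =
      (Fintype.card (↥(W₁ ⊔ W₂) →* ℂˣ) : ℝ) + ∑ ω : ↥(W₁ ⊔ W₂) →* ℂˣ, Complex.normSq (c ω) := by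
    simp_rw [hnorm]
    rw [Finset.sum_add_distrib, Finset.sum_add_distrib, ← Finset.mul_sum, ← Complex.re_sum,
      ← hSdef, hS]
    simp
  have hcol := Cfsg.Agent.Lib.Helper82.irr_sum_norm_sq (G := L) (w : L)
  rw [h.centralizer_eq w.2 hw] at hcol
  let f : (↥(W₁ ⊔ W₂) →* ℂˣ) → IrrCharacter L := fun ω => ⟨μ ω, hirr ω⟩
  have hf : Function.Injective f := fun a b hab => hinj (congrArg Subtype.val hab)
  have himg : ∑ χ ∈ Finset.univ.image f, ‖χ.1 (w : L)‖ ^ 2 =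
      ∑ ω : ↥(W₁ ⊔ W₂) →* ℂˣ, Complex.normSq (μ ω w) := by
    rw [Finset.sum_image (fun a _ b _ hab => hf hab)]
    refine Finset.sum_congr rfl (fun ω _ => ?_)
    rw [Complex.sq_norm]
  have hsplit : ∑ χ ∈ Finset.univ.image f, ‖χ.1 (w : L)‖ ^ 2 +
      ∑ χ ∈ (Finset.univ.image f)ᶜ, ‖χ.1 (w : L)‖ ^ 2 = (Nat.card ↥(W₁ ⊔ W₂) : ℝ) := by
    rw [Finset.sum_add_sum_compl]; exact hcol
  have hcard : Fintype.card (↥(W₁ ⊔ W₂) →* ℂˣ) = Nat.card ↥(W₁ ⊔ W₂) := by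
    rw [← Nat.card_eq_fintype_card]
    let _ : CommGroup ↥(W₁ ⊔ W₂) :=
      { (inferInstance : Group ↥(W₁ ⊔ W₂)) with mul_comm := h.commSub }
    exact CommGroup.card_monoidHom_of_hasEnoughRootsOfUnity _ ℂ
  have hnn1 : 0 ≤ ∑ ω : ↥(W₁ ⊔ W₂) →* ℂˣ, Complex.normSq (c ω) :=
    Finset.sum_nonneg (fun _ _ => Complex.normSq_nonneg _)
  have hnn2 : 0 ≤ ∑ χ ∈ (Finset.univ.image f)ᶜ, ‖χ.1 (w : L)‖ ^ 2 :=
    Finset.sum_nonneg (fun _ _ => sq_nonneg _)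
  rw [himg, hsum1, hcard] at hsplit
  have hz1 : ∑ ω : ↥(W₁ ⊔ W₂) →* ℂˣ, Complex.normSq (c ω) = 0 := by linarith
  have hz2 : ∑ χ ∈ (Finset.univ.image f)ᶜ, ‖χ.1 (w : L)‖ ^ 2 = 0 := by linarith
  constructor
  · intro ω
    have h6 := (Finset.sum_eq_zero_iff_of_nonneg (fun _ _ => Complex.normSq_nonneg _)).1 hz1 ω
      (Finset.mem_univ _)
    have hc0 : c ω = 0 := Complex.normSq_eq_zero.1 h6
    rw [hcdef] at hc0
    exact sub_eq_zero.1 hc0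
  · intro θ hθ hne
    have hmem : (⟨θ, hθ⟩ : IrrCharacter L) ∈ (Finset.univ.image f)ᶜ := by
      rw [Finset.mem_compl, Finset.mem_image]
      rintro ⟨ω, -, hω⟩
      exact hne ω (congrArg Subtype.val hω).symm
    have h6 := (Finset.sum_eq_zero_iff_of_nonneg (fun _ _ => sq_nonneg _)).1 hz2 _ hmem
    have h7 : ‖θ (w : L)‖ = 0 := by
      have : ‖θ (w : L)‖ ^ 2 = 0 := h6
      exact pow_eq_zero_iff (two_ne_zero) |>.1 this
    exact norm_eq_zero.1 h7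

omit [Fintype L] in
theorem pf_congr [Finite L] (h : PFSetup K W₁ W₂) (ω : ↥(W₁ ⊔ W₂) →* ℂˣ) (μω : L → ℂ) (δω : ℂ)
    (hμ : IsIrrCharacter L μω) (hδ : δω = 1 ∨ δω = -1)
    (hval : ∀ w : ↥(W₁ ⊔ W₂), (w : L) ∉ W₂ → μω w = δω * (ω w : ℂ)) :
    ∃ n : ℤ, μω 1 - δω = n * (Nat.card W₁ : ℂ) := by
  classical
  haveI : Fintype W₁ := Fintype.ofFinite _
  haveI : Fintype (IrrCharacter W₁) := Fintype.ofFinite _
  let ι : W₁ →* ↥(W₁ ⊔ W₂) := Subgroup.inclusion le_sup_left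
  have hres : IsCharacter W₁ (fun x : W₁ => μω (x : L)) :=
    isCharacter_comp_monoidHom W₁.subtype (isCharacter_of_irr hμ)
  have hlin : IsCharacter W₁ (fun x : W₁ => ((ω (ι x) : ℂˣ) : ℂ)) :=
    isCharacter_of_irr (linFun_irr (ω.comp ι))
  have h1 : IsIrrCharacter W₁ (fun _ => (1 : ℂ)) := Cfsg.Agent.Lib.Helper80.isIrrCharacter_one
  obtain ⟨m₁, hm₁⟩ := classInner_gen_int (isGen_of_isCharacter hres) (isGen_of_irr h1)
  obtain ⟨m₂, hm₂⟩ := classInner_gen_int (isGen_of_isCharacter hlin) (isGen_of_irr h1)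
  have hne : (Nat.card W₁ : ℂ) ≠ 0 := Nat.cast_ne_zero.2 Nat.card_pos.ne'
  have key : classInner (fun x : W₁ => μω (x : L)) (fun _ => (1 : ℂ)) -
      δω * classInner (fun x : W₁ => ((ω (ι x) : ℂˣ) : ℂ)) (fun _ => (1 : ℂ)) =
      (Nat.card W₁ : ℂ)⁻¹ * (μω 1 - δω) := by
    unfold classInner
    rw [← mul_assoc, mul_comm δω, mul_assoc, ← mul_sub, Finset.mul_sum, ← Finset.sum_sub_distrib]
    congr 1
    rw [Finset.sum_eq_single (1 : W₁)]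
    · simp
    · intro x _ hx1
      have hxW₂ : ((ι x : ↥(W₁ ⊔ W₂)) : L) ∉ W₂ := by
        intro hx2
        apply hx1
        apply Subtype.ext
        exact h.eq_one_of_mem x.2 (h.le hx2)
      have h8 : μω (x : L) = δω * ((ω (ι x) : ℂˣ) : ℂ) := hval (ι x) hxW₂
      beta_reduce
      rw [h8]
      simp
    · intro h'
      exact absurd (Finset.mem_univ _) h'
  rw [hm₁, hm₂] at key
  have key2 : μω 1 - δω = ((m₁ : ℂ) - δω * (m₂ : ℂ)) * (Nat.card W₁ : ℂ) := by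
    rw [key]
    field_simp
  rcases hδ with e | e
  · refine ⟨m₁ - m₂, ?_⟩
    rw [key2, e]
    push_cast
    ring
  · refine ⟨m₁ + m₂, ?_⟩
    rw [key2, e]
    push_cast
    ring

end Cfsg.Agent.Lib.Helper25
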